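import Mathlib.GroupTheory.Nilpotent
import Mathlib.GroupTheory.Perm.Cycle.Type
import Mathlib.Tactic

/-!
Two facts on involutory automorphisms with few fixed points.
-/

set_option autoImplicit false

namespace Cfsg.Agent.Lib.LWag

/-- Two involutory automorphisms of a finite abelian group whose product has no fixed points. -/
theorem card_eq_of_two_involutions {V : Type*} [CommGroup V] [Finite V] (p q : V ≃* V)
    (hp : ∀ v, p (p v) = v) (hq : ∀ v, q (q v) = v) (hpq : ∀ v, p (q v) = v → v = 1) :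
    Nat.card V = Nat.card {v // p v = v} * Nat.card {v // q v = v} := by
  have split : ∀ r : V ≃* V, (∀ v, r (r v) = v) → ∃ I : Subgroup V, (∀ v ∈ I, r v = v⁻¹) ∧
      Nat.card V = Nat.card {v // r v = v} * Nat.card I := by
    intro r hr
    let δ : V →* V :=
      { toFun := fun v => v * (r v)⁻¹
        map_one' := by simp
        map_mul' := fun u v => by rw [map_mul, mul_inv_rev]; ac_rfl }
    refine ⟨δ.range, ?_, ?_⟩
    · rintro _ ⟨v, rfl⟩
      show r (v * (r v)⁻¹) = (v * (r v)⁻¹)⁻¹
      rw [map_mul, map_inv, hr, mul_inv_rev, inv_inv]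
    · rw [← Subgroup.index_ker, mul_comm, ← δ.ker.index_mul_card]
      congr 1
      refine Nat.card_congr (Equiv.subtypeEquivRight fun v => ?_)
      show δ v = 1 ↔ _
      show v * (r v)⁻¹ = 1 ↔ _
      rw [mul_inv_eq_one, eq_comm]
  obtain ⟨I, hI, hcI⟩ := split p hp
  obtain ⟨J, hJ, hcJ⟩ := split q hq
  have h1 : Nat.card {v // p v = v} * Nat.card {v // q v = v} ≤ Nat.card V := by
    rw [← Nat.card_prod]
    refine Nat.card_le_card_of_injective (fun x => (x.1 : V) * x.2) ?_
    rintro ⟨⟨u, hu⟩, v, hv⟩ ⟨⟨u', hu'⟩, v', hv'⟩ h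
    simp only at h
    have e : u'⁻¹ * u = v' * v⁻¹ := by
      rw [eq_mul_inv_iff_mul_eq, mul_assoc, h, inv_mul_cancel_left]
    have e1 : u'⁻¹ * u = 1 := hpq _ (by
      conv_lhs => rw [e]
      rw [map_mul, map_inv, hv, hv', ← e, map_mul, map_inv, hu, hu'])
    rw [inv_mul_eq_one] at e1
    subst e1
    rw [mul_right_inj] at h
    subst h
    rfl
  have h2 : Nat.card I * Nat.card J ≤ Nat.card V := by
    rw [← Nat.card_prod]
    refine Nat.card_le_card_of_injective (fun x => (x.1 : V) * x.2) ?_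
    rintro ⟨u, v⟩ ⟨u', v'⟩ h
    simp only at h
    have e : (u' : V)⁻¹ * u = v' * (v : V)⁻¹ := by
      rw [eq_mul_inv_iff_mul_eq, mul_assoc, h, inv_mul_cancel_left]
    have e1 : (u' : V)⁻¹ * u = 1 := hpq _ (by
      conv_lhs => rw [e]
      rw [hJ _ (mul_mem v'.2 (inv_mem v.2)), ← e, map_inv, hI _ (mul_mem (inv_mem u'.2) u.2), inv_inv])
    rw [inv_mul_eq_one] at e1
    have hu : u' = u := Subtype.ext e1
    subst hu
    rw [mul_right_inj] at h
    have hv : v = v' := Subtype.ext h
    subst hv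
    rfl
  have hI0 : 0 < Nat.card I := Nat.card_pos
  have hJ0 : 0 < Nat.card J := Nat.card_pos
  refine le_antisymm (Nat.le_of_mul_le_mul_right (c := Nat.card I * Nat.card J) ?_ (Nat.mul_pos hI0 hJ0)) h1
  calc Nat.card V * (Nat.card I * Nat.card J) ≤ Nat.card V * Nat.card V := Nat.mul_le_mul_left _ h2
    _ = _ := by
      nth_rewrite 1 [hcI]
      rw [hcJ]
      ring

/-- A nilpotent group with centre of order 4 and exponent 2 and an involutory automorphism with at
most three fixed points, two of them central, is equal to its centre. -/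
theorem center_eq_top_of_few_fixed {F : Type*} [Group F] [Finite F] [Group.IsNilpotent F] (φ : F ≃* F)
    (hφ : ∀ u, φ (φ u) = u) (h4 : Nat.card (Subgroup.center F) = 4)
    (hexp : ∀ v ∈ Subgroup.center F, v * v = 1) (hC : Nat.card {u // φ u = u} ≤ 3)
    (hCV : Nat.card {v : Subgroup.center F // φ (v : F) = v} = 2) : Subgroup.center F = ⊤ := by
  set V := Subgroup.center F with hV
  by_contra hne
  have hφV : ∀ v ∈ V, φ v ∈ V := fun v hv => Subgroup.mem_center_iff.mpr fun x => by
    have := congrArg φ (Subgroup.mem_center_iff.mp hv (φ x))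
    rwa [map_mul, map_mul, hφ] at this
  -- the second centre
  haveI : Nontrivial (F ⧸ V) := QuotientGroup.nontrivial_iff.mpr hne
  obtain ⟨q, hq, hq1⟩ := (Subgroup.bot_or_exists_ne_one (Subgroup.center (F ⧸ V))).resolve_left
    (Group.IsNilpotent.center_ne_bot _)
  obtain ⟨y, rfl⟩ := QuotientGroup.mk_surjective q
  have hyV : y ∉ V := fun h => hq1 ((QuotientGroup.eq_one_iff y).mpr h)
  have hy : ∀ f : F, (y * f)⁻¹ * (f * y) ∈ V := fun f =>
    QuotientGroup.eq.mp (by simpa using (Subgroup.mem_center_iff.mp hq (f : F ⧸ V)).symm)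
  clear hq hq1
  have sq : ∀ w : F, (∀ f : F, (w * f)⁻¹ * (f * w) ∈ V) → w * w ∈ V := by
    intro w hw
    refine Subgroup.mem_center_iff.mpr fun f => ?_
    have e1 : f * w = w * f * ((w * f)⁻¹ * (f * w)) := (mul_inv_cancel_left _ _).symm
    have hc := Subgroup.mem_center_iff.mp (hw f)
    have h2 := hexp _ (hw f)
    set v := (w * f)⁻¹ * (f * w)
    calc f * (w * w) = f * w * w := by group
      _ = w * f * v * w := by rw [← e1]
      _ = w * f * (w * v) := by rw [mul_assoc (w * f), hc w]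
      _ = w * (f * w) * v := by group
      _ = w * (w * f * v) * v := by rw [← e1]
      _ = w * w * f * (v * v) := by group
      _ = w * w * f := by rw [h2, mul_one]
  -- an element outside the centre, fixed modulo the centre
  obtain ⟨w, hwV, hw, hwφ⟩ : ∃ w, w ∉ V ∧ (∀ f : F, (w * f)⁻¹ * (f * w) ∈ V) ∧ w⁻¹ * φ w ∈ V := by
    by_cases h : y⁻¹ * φ y ∈ V
    · exact ⟨y, hyV, hy, h⟩
    have hy' : ∀ f : F, (φ y * f)⁻¹ * (f * φ y) ∈ V := fun f => by
      have h1 := hφV _ (hy (φ f))
      rwa [map_mul, map_inv, map_mul, map_mul, hφ] at h1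
    refine ⟨y * φ y, fun hm => h ?_, fun f => ?_, ?_⟩
    · have e : y⁻¹ * φ y = (y * y)⁻¹ * (y * φ y) := by group
      rw [e]
      exact mul_mem (inv_mem (sq y hy)) hm
    · have hc := Subgroup.mem_center_iff.mp (hy f)
      have e : (y * φ y * f)⁻¹ * (f * (y * φ y)) =
          (φ y * f)⁻¹ * ((y⁻¹ * (f * y)) * φ y) := by group
      have e2 : y⁻¹ * (f * y) = f * ((y * f)⁻¹ * (f * y)) := by group
      rw [e, e2, mul_assoc f, ← hc (φ y), ← mul_assoc f, ← mul_assoc]
      exact mul_mem (hy' f) (hy f)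
    · rw [map_mul, hφ]
      exact hy (φ y)
  set v := w⁻¹ * φ w with hv
  have hφv : φ v = v := by
    rw [eq_comm, ← mul_inv_eq_one, hv, map_mul, map_inv, hφ]
    have e : w⁻¹ * φ w * ((φ w)⁻¹ * w)⁻¹ = v * v := by rw [hv]; group
    rw [e, hexp v hwφ]
  -- central fixed points are twisted squares
  let δ : V →* V :=
    { toFun := fun u => ⟨(u : F) * φ u, mul_mem u.2 (hφV _ u.2)⟩
      map_one' := by ext; simp
      map_mul' := fun a b => by
        ext
        show (a : F) * b * φ ((a : F) * b) = (a : F) * φ a * ((b : F) * φ b)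
        rw [map_mul, mul_assoc (a : F), ← mul_assoc (b : F), ← Subgroup.mem_center_iff.mp b.2 (φ a)]
        group }
  let Cv : Subgroup V := (MonoidHom.eqLocus (φ.toMonoidHom.comp V.subtype) V.subtype)
  have hCv : Nat.card Cv = 2 := hCV
  have hker : Nat.card δ.ker = 2 := by
    rw [← hCv]
    refine Nat.card_congr (Equiv.subtypeEquivRight fun u => ?_)
    show δ u = 1 ↔ φ (u : F) = u
    rw [Subtype.ext_iff]
    show (u : F) * φ u = 1 ↔ _
    rw [mul_eq_one_iff_inv_eq, inv_eq_of_mul_eq_one_right (hexp _ u.2), eq_comm]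
  have hrange : δ.range = Cv := by
    refine Subgroup.eq_of_le_of_card_ge ?_ ?_
    · rintro _ ⟨u, rfl⟩
      show φ ((u : F) * φ u) = (u : F) * φ u
      rw [map_mul, hφ]
      exact Subgroup.mem_center_iff.mp u.2 _
    · rw [hCv, ← Subgroup.index_ker]
      have := δ.ker.index_mul_card
      rw [hker, h4] at this
      omega
  obtain ⟨u, hu⟩ : (⟨v, hwφ⟩ : V) ∈ δ.range := by rw [hrange]; exact hφv
  have hu' : (u : F) * φ u = v := congrArg Subtype.val hu
  have hfix : φ (w * u) = w * u := by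
    have e : φ w = w * v := by rw [hv]; group
    rw [map_mul, e, ← hu', mul_assoc w, mul_assoc (u : F), hexp _ (hφV _ u.2), mul_one]
  -- count the fixed points
  let C : Subgroup F := MonoidHom.eqLocus φ.toMonoidHom (MonoidHom.id F)
  have hC3 : Nat.card C ≤ 3 := hC
  have hle : Cv.map V.subtype ≤ C := by
    rintro _ ⟨a, ha, rfl⟩
    exact ha
  have hc2 : Nat.card (Cv.map V.subtype) = 2 := by
    rw [Subgroup.card_map_of_injective V.subtype_injective, hCv]
  have heq : Cv.map V.subtype = C := by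
    refine Subgroup.eq_of_le_of_card_ge hle ?_
    have := Subgroup.card_dvd_of_le hle
    rw [hc2] at this ⊢
    have hpos : 0 < Nat.card C := Nat.card_pos
    omega
  have hm : w * u ∈ Cv.map V.subtype := by rw [heq]; exact hfix
  obtain ⟨a, -, ha⟩ := hm
  have : w = a * (u : F)⁻¹ := by rw [show (a : F) = w * u from ha]; group
  exact hwV (this ▸ mul_mem a.2 (inv_mem u.2))

end Cfsg.Agent.Lib.LWag
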