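import Mathlib.GroupTheory.GroupAction.MultipleTransitivity
import Mathlib.GroupTheory.Perm.Cycle.Type
import Mathlib.GroupTheory.GroupAction.Quotient
import Mathlib.Tactic

/-!
Basic facts on highly transitive permutation groups, used for the Livingstone–Wagner theorem.
-/

set_option autoImplicit false

namespace Cfsg.Agent.Lib.LWag

open Equiv MulAction

variable {α : Type*} [Fintype α] [DecidableEq α]

/-- The set of fixed points of a permutation. -/
def fixSet (g : Perm α) : Finset α := Finset.univ.filter fun x => g x = x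

theorem mem_fixSet {g : Perm α} {x : α} : x ∈ fixSet g ↔ g x = x := by simp [fixSet]

/-- The number of fixed points of an element of `p`-power order. -/
theorem fixSet_modEq {p j : ℕ} [Fact p.Prime] {g : Perm α} (hg : g ^ p ^ j = 1) :
    (fixSet g).card ≡ Fintype.card α [MOD p] := by
  have h := Perm.card_compl_support_modEq hg
  have he : g.supportᶜ = fixSet g := by ext x; simp [mem_fixSet]
  rwa [he] at h

variable {G : Subgroup (Perm α)} {k : ℕ}

/-- No non-identity element fixes more than `k` points. -/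
def Semireg (G : Subgroup (Perm α)) (k : ℕ) : Prop :=
  ∀ g ∈ G, ∀ s : Finset α, k + 1 ≤ s.card → (∀ x ∈ s, g x = x) → g = 1

theorem Semireg.fix_le (h : Semireg G k) {g : Perm α} (hg : g ∈ G) (h1 : g ≠ 1) :
    (fixSet g).card ≤ k := by
  by_contra hc
  exact h1 (h g hg (fixSet g) (by omega) fun x hx => mem_fixSet.mp hx)

theorem Semireg.eq_one (h : Semireg G k) {g : Perm α} (hg : g ∈ G) {s : Finset α} (hs : s.card = k)
    (hfix : ∀ x ∈ s, g x = x) {y : α} (hy : y ∉ s) (hgy : g y = y) : g = 1 :=
  h g hg (insert y s) (by rw [Finset.card_insert_of_notMem hy, hs]) fun x hx =>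
    (Finset.mem_insert.mp hx).elim (fun e => e ▸ hgy) (hfix x)

/-- Every partial injection with at most `k` points extends to an element of a `k`-transitive
group. -/
theorem exists_extend (hG : IsMultiplyPretransitive G α k) (hk : k ≤ Fintype.card α) (s : Finset α)
    (hs : s.card ≤ k) (f : α → α) (hf : Set.InjOn f (s : Set α)) :
    ∃ g ∈ G, ∀ x ∈ s, g x = f x := by
  haveI : IsMultiplyPretransitive G α s.card :=
    isMultiplyPretransitive_of_le' hs (by rw [ENat.card_eq_coe_fintype_card]; exact_mod_cast hk)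
  let e := s.equivFin
  let u : Fin s.card ↪ α := e.symm.toEmbedding.trans (Function.Embedding.subtype _)
  let v : Fin s.card ↪ α := ⟨fun i => f (e.symm i), fun i j h =>
    e.symm.injective (Subtype.ext (hf (e.symm i).2 (e.symm j).2 h))⟩
  obtain ⟨g, hg⟩ := exists_smul_eq G u v
  refine ⟨g, g.2, fun x hx => ?_⟩
  have h := DFunLike.congr_fun hg (e ⟨x, hx⟩)
  rw [Function.Embedding.smul_apply, Subgroup.smul_def, Perm.smul_def] at h
  simp only [u, v, Function.Embedding.trans_apply, Equiv.coe_toEmbedding, Equiv.symm_apply_apply,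
    Function.Embedding.coeFn_mk, Function.Embedding.coe_subtype] at h
  convert h using 1
  show _ = f (e.symm (e ⟨x, hx⟩) : α)
  rw [Equiv.symm_apply_apply]

/-- An element exchanging two points and fixing the others in a small set. -/
theorem exists_swap_lift (hG : IsMultiplyPretransitive G α k) (hk : k ≤ Fintype.card α) (s : Finset α)
    (hs : s.card ≤ k) (a b : α) : ∃ g ∈ G, ∀ x ∈ s, g x = Equiv.swap a b x :=
  exists_extend hG hk s hs _ (Equiv.swap a b).injective.injOn

/-- An element moving one set of size at most `k` onto another. -/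
theorem exists_map_set (hG : IsMultiplyPretransitive G α k) (hk : k ≤ Fintype.card α) (s t : Finset α)
    (hs : s.card ≤ k) (hst : s.card = t.card) : ∃ g ∈ G, s.image g = t := by
  let e : s ≃ t := Fintype.equivOfCardEq (by simp [hst])
  let f : α → α := fun x => if h : x ∈ s then e ⟨x, h⟩ else x
  obtain ⟨g, hg, hgs⟩ := exists_extend hG hk s hs f (fun x hx y hy hxy => by
    simp only [f, dif_pos (Finset.mem_coe.mp hx), dif_pos (Finset.mem_coe.mp hy)] at hxy
    exact congrArg Subtype.val (e.injective (Subtype.ext hxy)))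
  refine ⟨g, hg, Finset.eq_of_subset_of_card_le (fun y hy => ?_) ?_⟩
  · obtain ⟨x, hx, rfl⟩ := Finset.mem_image.mp hy
    rw [hgs x hx]
    simp [f, hx]
  · rw [Finset.card_image_of_injective _ g.injective, hst]

/-- Pointwise stabilizer of a finite set inside `G`. -/
def fixIn (G : Subgroup (Perm α)) (s : Finset α) : Subgroup (Perm α) :=
  G ⊓ fixingSubgroup (Perm α) (s : Set α)

theorem mem_fixIn {s : Finset α} {g : Perm α} :
    g ∈ fixIn G s ↔ g ∈ G ∧ ∀ x ∈ s, g x = x := by
  simp [fixIn, mem_fixingSubgroup_iff]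

theorem card_fixIn_image {g : Perm α} (hg : g ∈ G) (s : Finset α) :
    Nat.card (fixIn G (s.image g)) = Nat.card (fixIn G s) := by
  refine Nat.card_congr ?_
  exact
    { toFun := fun u => ⟨g⁻¹ * u * g, mem_fixIn.mpr
        ⟨mul_mem (mul_mem (inv_mem hg) (mem_fixIn.mp u.2).1) hg, fun x hx => by
          simp [(mem_fixIn.mp u.2).2 (g x) (Finset.mem_image_of_mem _ hx)]⟩⟩
      invFun := fun u => ⟨g * u * g⁻¹, mem_fixIn.mpr
        ⟨mul_mem (mul_mem hg (mem_fixIn.mp u.2).1) (inv_mem hg), fun x hx => by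
          obtain ⟨y, hy, rfl⟩ := Finset.mem_image.mp hx
          simp [(mem_fixIn.mp u.2).2 y hy]⟩⟩
      left_inv := fun u => Subtype.ext (by group)
      right_inv := fun u => Subtype.ext (by group) }

/-- An involutory pattern on a set with odd pointwise stabilizer is induced by an involution. -/
theorem exists_involution_lift {g : Perm α} (hg : g ∈ G) (s : Finset α)
    (hsq : ∀ x ∈ s, g (g x) = x) (hodd : Odd (Nat.card (fixIn G s))) :
    ∃ z ∈ G, z * z = 1 ∧ ∀ x ∈ s, z x = g x := by
  set N := Nat.card (fixIn G s) with hN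
  have hgg : g * g ∈ fixIn G s := mem_fixIn.mpr ⟨mul_mem hg hg, fun x hx => hsq x hx⟩
  have h1 : (g * g) ^ N = 1 := congrArg Subtype.val (pow_card_eq_one' (x := (⟨g * g, hgg⟩ : fixIn G s)))
  refine ⟨g ^ N, pow_mem hg N, by rw [← (Commute.refl g).mul_pow, h1], fun x hx => ?_⟩
  obtain ⟨j, hj⟩ := hodd
  rw [hj, pow_succ', pow_mul, pow_two, Perm.mul_apply, (mem_fixIn.mp (pow_mem hgg j)).2 x hx]

/-- Every permutation of `Δ` is induced by `G`. -/
def Full (G : Subgroup (Perm α)) (Δ : Finset α) : Prop :=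
  ∀ σ : Perm ↥Δ, ∃ g ∈ G, ∀ x : ↥Δ, g (x : α) = σ x

theorem full_of_swaps {Δ : Finset α}
    (h : ∀ a ∈ Δ, ∀ b ∈ Δ, a ≠ b →
      ∃ g ∈ G, g a = b ∧ g b = a ∧ ∀ c ∈ Δ, c ≠ a → c ≠ b → g c = c) : Full G Δ := by
  intro σ
  induction σ using Perm.swap_induction_on with
  | one => exact ⟨1, one_mem _, fun x => rfl⟩
  | swap_mul f a b hab ih =>
    obtain ⟨g, hg, hgf⟩ := ih
    obtain ⟨t, ht, hta, htb, htc⟩ := h a a.2 b b.2 (fun e => hab (Subtype.ext e))
    refine ⟨t * g, mul_mem ht hg, fun x => ?_⟩
    rw [Perm.mul_apply, hgf, Perm.mul_apply]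
    by_cases ha : f x = a
    · rw [ha, Equiv.swap_apply_left, hta]
    by_cases hb : f x = b
    · rw [hb, Equiv.swap_apply_right, htb]
    rw [Equiv.swap_apply_of_ne_of_ne ha hb,
      htc _ (f x).2 (fun e => ha (Subtype.ext e)) (fun e => hb (Subtype.ext e))]

/-- One full `(k+1)`-set and transitivity on `(k+1)`-sets give `(k+1)`-transitivity. -/
theorem trans_of_full {j : ℕ} {Δ : Finset α} (hΔc : Δ.card = j) (hΔ : Full G Δ)
    (hh : ∀ t : Finset α, t.card = j → ∃ g ∈ G, Δ.image g = t) :
    IsMultiplyPretransitive G α j := by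
  rw [isMultiplyPretransitive_iff]
  suffices key : ∀ x : Fin j ↪ α, ∀ e : Fin j ≃ ↥Δ, ∃ g : G, ∀ i, (g : Perm α) (e i) = x i by
    intro x y
    have e : Fin j ≃ ↥Δ := Fintype.equivOfCardEq (by simp [hΔc])
    obtain ⟨g, hg⟩ := key x e
    obtain ⟨g', hg'⟩ := key y e
    refine ⟨g' * g⁻¹, Function.Embedding.ext fun i => ?_⟩
    rw [Function.Embedding.smul_apply, Subgroup.smul_def, Perm.smul_def, Subgroup.coe_mul,
      Subgroup.coe_inv, Perm.mul_apply, ← hg i, Perm.coe_inv, Equiv.symm_apply_apply, hg']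
  intro x e
  obtain ⟨g, hg, hgΔ⟩ := hh (Finset.univ.map x) (by simp)
  have hmem : ∀ i, g⁻¹ (x i) ∈ Δ := fun i => by
    have : x i ∈ Δ.image g := by rw [hgΔ]; simp
    obtain ⟨y, hy, hyi⟩ := Finset.mem_image.mp this
    rw [← hyi, Perm.coe_inv, Equiv.symm_apply_apply]; exact hy
  let τ : ↥Δ → ↥Δ := fun d => ⟨g⁻¹ (x (e.symm d)), hmem _⟩
  have hτ : Function.Bijective τ := Finite.injective_iff_bijective.mp fun d d' h =>
    e.symm.injective (x.injective (g⁻¹.injective (congrArg Subtype.val h)))
  obtain ⟨h, hhG, hh'⟩ := hΔ (Equiv.ofBijective τ hτ)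
  refine ⟨⟨g * h, mul_mem hg hhG⟩, fun i => ?_⟩
  show g (h (e i)) = x i
  rw [hh', Equiv.ofBijective_apply]
  simp [τ]

/-- If some stabilizer of `k` points is transitive on the other points, a `k`-transitive group is
`(k+1)`-transitive. -/
theorem trans_succ (hG : IsMultiplyPretransitive G α k) (hk : k ≤ Fintype.card α) (s : Finset α)
    (hs : s.card = k) (htr : ∀ x ∉ s, ∀ y ∉ s, ∃ g ∈ fixIn G s, g x = y) :
    IsMultiplyPretransitive G α (k + 1) := by
  rw [isMultiplyPretransitive_iff]
  intro x y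
  let e : Fin k ≃ ↥s := Fintype.equivOfCardEq (by simp [hs])
  let u : Fin k ↪ α := e.toEmbedding.trans (Function.Embedding.subtype _)
  have key : ∀ z : Fin (k + 1) ↪ α, ∃ g : G, (∀ i : Fin k, g • z i.castSucc = u i) ∧
      g • z (Fin.last k) ∉ s := by
    intro z
    obtain ⟨g, hg⟩ := exists_smul_eq G (Fin.castSuccEmb.trans z) u
    refine ⟨g, fun i => by simpa using DFunLike.congr_fun hg i, fun hm => ?_⟩
    obtain ⟨i, hi⟩ := e.surjective ⟨_, hm⟩
    have h2 : g • z i.castSucc = g • z (Fin.last k) := by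
      have := DFunLike.congr_fun hg i
      simp only [Function.Embedding.smul_apply, Function.Embedding.trans_apply] at this
      rw [show g • z i.castSucc = u i from this]
      exact congrArg Subtype.val hi
    exact absurd (z.injective (MulAction.injective g h2)) (Fin.castSucc_ne_last i)
  obtain ⟨g, hg, hgl⟩ := key x
  obtain ⟨g', hg', hgl'⟩ := key y
  obtain ⟨h, hh, hhe⟩ := htr _ hgl _ hgl'
  refine ⟨g'⁻¹ * ⟨h, (mem_fixIn.mp hh).1⟩ * g, Function.Embedding.ext fun i => ?_⟩
  rw [Function.Embedding.smul_apply, mul_smul, mul_smul, inv_smul_eq_iff]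
  induction i using Fin.lastCases with
  | last => exact hhe
  | cast i =>
    rw [hg, hg']
    exact (mem_fixIn.mp hh).2 _ (e i).2

/-- The order of a freely acting group divides the number of points. -/
theorem free_card_dvd {K Y : Type*} [Group K] [MulAction K Y] (h : ∀ y : Y, stabilizer K y = ⊥) :
    Nat.card K ∣ Nat.card Y := by
  rw [Nat.card_congr (selfEquivOrbitsQuotientProd' (φ := Quotient.out) Quotient.out_eq' h),
    Nat.card_prod]
  exact Dvd.intro_left _ rfl

/-- In a semiregular situation the order of the `k`-point stabilizer divides the number of other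
points. -/
theorem Semireg.card_dvd (hS : Semireg G k) {s : Finset α} (hs : s.card = k) :
    Nat.card (fixIn G s) ∣ Fintype.card α - k := by
  classical
  let Y : SubMulAction (fixIn G s) α :=
    { carrier := {x | x ∉ s}
      smul_mem' := fun g x hx => fun hm => hx (by
        have := (mem_fixIn.mp g.2).2 _ hm
        rw [Subgroup.smul_def, Perm.smul_def] at this hm
        exact (g : Perm α).injective this ▸ hm) }
  have hY : Nat.card Y = Fintype.card α - k := by
    rw [← hs, ← Finset.card_compl, ← Fintype.card_coe, ← Nat.card_eq_fintype_card]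
    exact Nat.card_congr (Equiv.subtypeEquivRight fun x => (Finset.mem_compl).symm)
  rw [← hY]
  refine free_card_dvd fun y => (Subgroup.eq_bot_iff_forall _).mpr fun g hg => ?_
  exact Subtype.ext (hS.eq_one (mem_fixIn.mp g.2).1 hs (mem_fixIn.mp g.2).2 y.2
    (congrArg Subtype.val hg))

/-- If the stabilizer of `k` points has as many elements as there are other points, the group is
`(k+1)`-transitive. -/
theorem Semireg.trans_of_card (hS : Semireg G k) (hG : IsMultiplyPretransitive G α k)
    (hk : k ≤ Fintype.card α) {s : Finset α} (hs : s.card = k)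
    (hc : Nat.card (fixIn G s) = Fintype.card α - k) : IsMultiplyPretransitive G α (k + 1) := by
  refine trans_succ hG hk s hs fun x hx y hy => ?_
  have hmem : ∀ g : fixIn G s, (g : Perm α) x ∈ sᶜ := fun g => by
    rw [Finset.mem_compl]
    intro hm
    exact hx ((g : Perm α).injective ((mem_fixIn.mp g.2).2 _ hm) ▸ hm)
  have hbij : Function.Bijective (fun g : fixIn G s => (⟨(g : Perm α) x, hmem g⟩ : ↥sᶜ)) := by
    rw [Nat.bijective_iff_injective_and_card]
    refine ⟨fun g g' h => ?_, by rw [hc, Nat.card_eq_fintype_card, Fintype.card_coe, Finset.card_compl, hs]⟩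
    have h1 := congrArg Subtype.val h
    simp only at h1
    have h2 := mem_fixIn.mp (mul_mem (inv_mem g'.2) g.2)
    have h3 : ((g' : Perm α)⁻¹ * (g : Perm α)) = 1 :=
      hS.eq_one h2.1 hs h2.2 hx (by rw [Perm.mul_apply, h1, Perm.coe_inv, Equiv.symm_apply_apply])
    exact Subtype.ext (inv_mul_eq_one.mp h3).symm
  obtain ⟨g, hg⟩ := hbij.2 ⟨y, Finset.mem_compl.mpr hy⟩
  exact ⟨g, g.2, congrArg Subtype.val hg⟩

/-- A `(k+1)`-transitive group induces everything on every `(k+1)`-set. -/
theorem full_of_trans (hG : IsMultiplyPretransitive G α k) (hk : k ≤ Fintype.card α) {Δ : Finset α}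
    (hΔ : Δ.card ≤ k) : Full G Δ := by
  intro σ
  obtain ⟨g, hg, h⟩ := exists_extend hG hk Δ hΔ (Perm.ofSubtype σ) (Perm.ofSubtype σ).injective.injOn
  exact ⟨g, hg, fun x => (h x x.2).trans (Perm.ofSubtype_apply_coe σ x)⟩

theorem card_involutions_odd {H : Type*} [Group H] [Finite H] (h : Even (Nat.card H)) :
    Odd (Nat.card {j : H // j * j = 1 ∧ j ≠ 1}) := by
  classical
  have := Fintype.ofFinite H
  have h1 := Perm.card_compl_support_modEq (p := 2) (n := 1) (σ := Equiv.inv H)
    (by ext x; simp [pow_two])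
  have h2 : (Equiv.inv H).supportᶜ = Finset.univ.filter fun j : H => j * j = 1 := by
    ext j
    simp [inv_eq_iff_mul_eq_one]
  rw [h2] at h1
  have h3 : (Finset.univ.filter fun j : H => j * j = 1) =
      insert 1 (Finset.univ.filter fun j : H => j * j = 1 ∧ j ≠ 1) := by
    ext j; by_cases hj : j = 1 <;> simp [hj]
  rw [h3, Finset.card_insert_of_notMem (by simp), ← Nat.card_eq_fintype_card] at h1
  rw [Nat.card_eq_fintype_card, Fintype.card_subtype, Nat.odd_iff]
  rw [Nat.even_iff] at h
  unfold Nat.ModEq at h1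
  omega

/-- Even stabilizers of `k` points: every `(k+1)`-set is full. -/
theorem Semireg.full_of_even (hS : Semireg G k) (hG : IsMultiplyPretransitive G α k)
    (hk : k ≤ Fintype.card α) (hev : ∀ t : Finset α, t.card = k → Even (Nat.card (fixIn G t)))
    (Δ : Finset α) (hΔ : Δ.card = k + 1) (hk2 : 2 ≤ k) : Full G Δ := by
  classical
  refine full_of_swaps fun a ha b hb hab => ?_
  obtain ⟨x, hx⟩ := (Finset.card_pos.mp (show 0 < ((Δ.erase a).erase b).card by
    rw [Finset.card_erase_of_mem (by simp [hb, hab.symm]), Finset.card_erase_of_mem ha]; omega))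
  simp only [Finset.mem_erase] at hx
  obtain ⟨hxb, hxa, hxΔ⟩ := hx
  set s := Δ.erase x with hs
  have hsc : s.card = k := by rw [hs, Finset.card_erase_of_mem hxΔ]; omega
  -- an involution fixing `s`
  obtain ⟨i, hi⟩ := (Nat.card_pos_iff.mp (card_involutions_odd (hev s hsc)).pos).1
  have hii : (i : Perm α) * i = 1 := congrArg Subtype.val hi.1
  have hi1 : (i : Perm α) ≠ 1 := fun e => hi.2 (Subtype.ext e)
  obtain ⟨hiG, his⟩ := mem_fixIn.mp i.2
  have hxs : x ∉ s := by simp [hs]
  set y := (i : Perm α) x with hy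
  have hyx : y ≠ x := fun e => hi1 (hS.eq_one hiG hsc his hxs e)
  have hys : y ∉ s := fun hm => hxs ((i : Perm α).injective (his y hm) ▸ hm)
  have hiy : (i : Perm α) y = x := by rw [hy, ← Perm.mul_apply, hii, Perm.one_apply]
  have has : a ∈ s := by simp [hs, ha, Ne.symm hxa]
  have hbs : b ∈ s := by simp [hs, hb, Ne.symm hxb]
  -- the set with `a`, `b` replaced by `x`, `y`
  set t := insert x (insert y ((s.erase a).erase b)) with ht
  have htc : t.card = k := by
    rw [ht, Finset.card_insert_of_notMem, Finset.card_insert_of_notMem,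
      Finset.card_erase_of_mem (by simp [hbs, hab.symm]), Finset.card_erase_of_mem has, hsc]
    · omega
    · simp [hys]
    · simp [hxs, Ne.symm hyx]
  have hti : ∀ c ∈ t, (i : Perm α) c ∈ t := by
    intro c hc
    simp only [ht, Finset.mem_insert, Finset.mem_erase] at hc ⊢
    rcases hc with rfl | rfl | hc
    · exact Or.inr (Or.inl rfl)
    · exact Or.inl hiy
    · rw [his c hc.2.2]; exact Or.inr (Or.inr hc)
  let J := {j : fixIn G t // j * j = 1 ∧ j ≠ 1}
  have hconj : ∀ j : J, (i : Perm α) * ((j.1 : fixIn G t) : Perm α) * i ∈ fixIn G t := fun j =>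
    mem_fixIn.mpr ⟨mul_mem (mul_mem hiG (mem_fixIn.mp j.1.2).1) hiG, fun c hc => by
      rw [Perm.mul_apply, Perm.mul_apply, (mem_fixIn.mp j.1.2).2 _ (hti c hc), ← Perm.mul_apply, hii,
        Perm.one_apply]⟩
  have hcJ : ∀ j : J, (⟨_, hconj j⟩ : fixIn G t) * ⟨_, hconj j⟩ = 1 ∧ (⟨_, hconj j⟩ : fixIn G t) ≠ 1 := by
    intro j
    have hjj : ((j.1 : fixIn G t) : Perm α) * (j.1 : fixIn G t) = 1 := congrArg Subtype.val j.2.1
    refine ⟨Subtype.ext ?_, fun e => j.2.2 (Subtype.ext ?_)⟩
    · show _ * _ = (1 : Perm α)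
      calc (i : Perm α) * (j.1 : fixIn G t) * i * ((i : Perm α) * (j.1 : fixIn G t) * i)
          = (i : Perm α) * (j.1 : fixIn G t) * ((i : Perm α) * i) * (j.1 : fixIn G t) * i := by group
        _ = 1 := by rw [hii, mul_one, mul_assoc (i : Perm α), hjj, mul_one, hii]
    · have e' : (i : Perm α) * (j.1 : fixIn G t) * i = 1 := congrArg Subtype.val e
      calc ((j.1 : fixIn G t) : Perm α)
          = ((i : Perm α) * i) * (j.1 : fixIn G t) * ((i : Perm α) * i) := by rw [hii, one_mul, mul_one]
        _ = (i : Perm α) * ((i : Perm α) * (j.1 : fixIn G t) * i) * i := by group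
        _ = 1 := by rw [e', mul_one, hii]
  let c : J → J := fun j => ⟨⟨_, hconj j⟩, hcJ j⟩
  have hcc : Function.Involutive c := fun j => Subtype.ext (Subtype.ext (by
    show (i : Perm α) * ((i : Perm α) * (j.1 : fixIn G t) * i) * i = (j.1 : fixIn G t)
    calc _ = ((i : Perm α) * i) * (j.1 : fixIn G t) * ((i : Perm α) * i) := by group
      _ = _ := by rw [hii, one_mul, mul_one]))
  haveI : Fintype J := Fintype.ofFinite J
  obtain ⟨j, hj⟩ := Perm.exists_fixed_point_of_prime (p := 2) (n := 1) (σ := hcc.toPerm) (by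
      rw [← Nat.card_eq_fintype_card, ← even_iff_two_dvd, Nat.not_even_iff_odd]
      exact card_involutions_odd (hev t htc))
    (by ext j; simp [pow_two, hcc j])
  set g := ((j.1 : fixIn G t) : Perm α) with hg
  have hgi : (i : Perm α) * g * i = g := congrArg (fun q : J => ((q.1 : fixIn G t) : Perm α)) hj
  obtain ⟨hgG, hgt⟩ := mem_fixIn.mp j.1.2
  have hg1 : g ≠ 1 := fun e => j.2.2 (Subtype.ext e)
  have hgg : ∀ c, g (g c) = c := fun c => by
    rw [← Perm.mul_apply, show g * g = 1 from congrArg Subtype.val j.2.1, Perm.one_apply]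
  -- `g` preserves the fixed points of `i`
  have hgs : ∀ c ∈ s, g c ∈ s := by
    intro c hc
    by_contra hns
    refine hi1 (hS.eq_one hiG hsc his hns ?_)
    conv_rhs => rw [← hgi]
    simp [his c hc]
  have hrest : ∀ c ∈ Δ, c ≠ a → c ≠ b → g c = c := by
    intro c hc hca hcb
    refine hgt c ?_
    simp only [ht, Finset.mem_insert, Finset.mem_erase, hs]
    by_cases hcx : c = x
    · exact Or.inl hcx
    · exact Or.inr (Or.inr ⟨hcb, hca, hcx, hc⟩)
  have hat : a ∉ t := by
    simp only [ht, Finset.mem_insert, Finset.mem_erase, not_or]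
    exact ⟨Ne.symm hxa, fun e => hys (e ▸ has), fun h => h.2.1 rfl⟩
  have hga : g a = b := by
    have hm := hgs a has
    have hne : g a ≠ a := fun e => hg1 (hS.eq_one hgG htc hgt hat e)
    by_contra hgb
    have h2 := hrest (g a) (Finset.mem_of_mem_erase (hs ▸ hm)) hne hgb
    rw [hgg] at h2
    exact hne h2.symm
  exact ⟨g, hgG, hga, by rw [← hga, hgg], hrest⟩

end Cfsg.Agent.Lib.LWag
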