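import Cfsg.Agent.Lib.LWag.Basic
import Cfsg.Agent.Lib.LWag.Auto
import Cfsg.Agent.Lib.FPF.FrobeniusKernel
import Mathlib.GroupTheory.GroupAction.SubMulAction.OfFixingSubgroup

/-!
A highly transitive group in which only the identity fixes more than `k` points, and whose
stabilizers of `k` points have odd order at least 3.
-/

set_option autoImplicit false

namespace Cfsg.Agent.Lib.LWag

open Equiv MulAction
open scoped Pointwise

variable {α : Type*} [Fintype α] [DecidableEq α] {G : Subgroup (Perm α)} {k : ℕ}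

/-- Conjugation by an involution normalizing a subgroup. -/
def conjInvol (K : Subgroup (Perm α)) (z : Perm α) (hz : z * z = 1) (hK : ∀ u ∈ K, z * u * z ∈ K) :
    ↥K ≃* ↥K where
  toFun u := ⟨z * u * z, hK u u.2⟩
  invFun u := ⟨z * u * z, hK u u.2⟩
  left_inv u := Subtype.ext (by
    show z * (z * u * z) * z = u
    calc z * (z * u * z) * z = (z * z) * u * (z * z) := by group
      _ = u := by rw [hz, one_mul, mul_one])
  right_inv u := Subtype.ext (by
    show z * (z * u * z) * z = u
    calc z * (z * u * z) * z = (z * z) * u * (z * z) := by group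
      _ = u := by rw [hz, one_mul, mul_one])
  map_mul' u v := Subtype.ext (by
    show z * (u * v) * z = z * u * z * (z * v * z)
    calc z * ((u : Perm α) * v) * z = z * u * (z * z) * v * z := by rw [hz, mul_one, ← mul_assoc z]
      _ = _ := by group)

omit [Fintype α] [DecidableEq α] in
theorem conjInvol_fix_iff (K : Subgroup (Perm α)) (z : Perm α) (hz : z * z = 1)
    (hK : ∀ u ∈ K, z * u * z ∈ K) (u : ↥K) :
    conjInvol K z hz hK u = u ↔ z * (u : Perm α) = u * z := by
  rw [Subtype.ext_iff]
  show z * u * z = (u : Perm α) ↔ _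
  constructor
  · intro h
    conv_rhs => rw [← h]
    rw [mul_assoc (z * _) z z, hz, mul_one]
  · intro h
    rw [h, mul_assoc, hz, mul_one]

/-- The regular normal subgroup of the stabilizer of `k - 1` points. -/
theorem exists_kernel (hG : IsMultiplyPretransitive G α k) (hn : k + 1 ≤ Fintype.card α) (hS : Semireg G k)
    (s : Finset α) (hs : s.card = k) (d : α) (hd : d ∈ s) (hne : fixIn G s ≠ ⊥) :
    ∃ F : Subgroup (Perm α), F ≤ fixIn G (s.erase d) ∧ Group.IsNilpotent F ∧
      (∀ x, x ∉ s.erase d → ∃ u ∈ F, u d = x) ∧ (∀ u ∈ F, u d = d → u = 1) ∧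
      ∀ u, u ∈ F ↔ u ∈ fixIn G (s.erase d) ∧ (u = 1 ∨ ∀ x, x ∉ s.erase d → u x ≠ x) := by
  set A := s.erase d with hA
  set X := fixIn G A with hX
  have hsX : fixIn G s ≤ X := fun g hg => mem_fixIn.mpr
    ⟨(mem_fixIn.mp hg).1, fun c hc => (mem_fixIn.mp hg).2 c (Finset.mem_of_mem_erase hc)⟩
  set H := (fixIn G s).subgroupOf X with hH
  have memH : ∀ u : X, u ∈ H ↔ (u : Perm α) d = d := by
    intro u
    rw [hH, Subgroup.mem_subgroupOf, mem_fixIn]
    refine ⟨fun h => h.2 d hd, fun h => ⟨(mem_fixIn.mp u.2).1, fun c hc => ?_⟩⟩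
    by_cases hcd : c = d
    · rw [hcd]; exact h
    · exact (mem_fixIn.mp u.2).2 c (Finset.mem_erase.mpr ⟨hcd, hc⟩)
  have hdA : d ∉ A := by simp [hA]
  have notA : ∀ u : X, ∀ x, x ∉ A → (u : Perm α) x ∉ A := fun u x hx hm =>
    hx ((u : Perm α).injective ((mem_fixIn.mp u.2).2 _ hm) ▸ hm)
  -- transitivity off `A`
  have htr : ∀ x, x ∉ A → ∃ u : X, (u : Perm α) d = x := by
    intro x hx
    classical
    obtain ⟨g, hg, hgs⟩ := exists_extend hG (by omega) s hs.le (fun c => if c = d then x else c) (by
      intro c hc c' hc' h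
      simp only at h
      by_cases h1 : c = d <;> by_cases h2 : c' = d <;> simp only [h1, h2, if_true, if_false] at h
      · rw [h1, h2]
      · exact absurd (h ▸ Finset.mem_erase.mpr ⟨h2, hc'⟩) hx
      · exact absurd (h ▸ Finset.mem_erase.mpr ⟨h1, hc⟩) hx
      · exact h)
    refine ⟨⟨g, mem_fixIn.mpr ⟨hg, fun c hc => ?_⟩⟩, by simpa using hgs d hd⟩
    rw [hgs c (Finset.mem_of_mem_erase hc), if_neg (Finset.ne_of_mem_erase hc)]
  have hFC : IsFrobeniusComplement H := by
    refine ⟨fun h => hne ?_, fun h => ?_, fun g hg => ?_⟩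
    · rw [Subgroup.subgroupOf_eq_bot, disjoint_iff, inf_eq_left.mpr hsX] at h
      exact h
    · obtain ⟨x, hx⟩ : (Finset.univ \ s).Nonempty := Finset.card_pos.mp (by
        rw [Finset.card_sdiff_of_subset (Finset.subset_univ _), Finset.card_univ, hs]; omega)
      simp only [Finset.mem_sdiff, Finset.mem_univ, true_and] at hx
      obtain ⟨u, hu⟩ := htr x (fun hm => hx (Finset.mem_of_mem_erase hm))
      have : (u : Perm α) d = d := (memH u).mp (h ▸ Subgroup.mem_top u)
      exact hx (hu ▸ this.symm ▸ hd)
    · refine (Subgroup.eq_bot_iff_forall _).mpr fun u hu => ?_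
      obtain ⟨hu1, hu2⟩ := hu
      obtain ⟨v, hv, rfl⟩ := hu2
      have hgd : (g : Perm α) d ∉ s := fun hm => by
        rcases Finset.mem_insert.mp (Finset.insert_erase hd ▸ hm : (g : Perm α) d ∈ insert d A) with h | h
        · exact hg ((memH g).mpr h)
        · exact notA g d hdA h
      refine Subtype.ext (hS.eq_one (mem_fixIn.mp (hsX hu1)).1 hs (mem_fixIn.mp hu1).2 hgd ?_)
      show ((g * v * g⁻¹ : X) : Perm α) ((g : Perm α) d) = _
      simp [(memH v).mp hv]
  obtain ⟨N, hset, -, hc, hnil⟩ := Cfsg.Agent.Lib.FPF.exists_frobenius_kernel_nilpotent hFC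
  have hchar : ∀ u : X, u ∈ N ↔ (u = 1 ∨ ∀ x, x ∉ A → (u : Perm α) x ≠ x) := by
    intro u
    rw [← SetLike.mem_coe, hset]
    show (u = 1 ∨ ∀ g : X, u ∉ MulAut.conj g • H) ↔ _
    refine or_congr_right ⟨fun h x hx hux => ?_, fun h g hm => ?_⟩
    · obtain ⟨g, hg⟩ := htr x hx
      refine h g (Subgroup.mem_pointwise_smul_iff_inv_smul_mem.mpr ?_)
      rw [← map_inv, MulAut.smul_def, memH]
      simp [hg, hux, Equiv.symm_apply_eq]
    · rw [Subgroup.mem_pointwise_smul_iff_inv_smul_mem, ← map_inv, MulAut.smul_def, memH] at hm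
      refine h _ (notA g d hdA) ?_
      simpa [Equiv.symm_apply_eq] using hm
  refine ⟨N.map X.subtype, Subgroup.map_subtype_le N, ?_, ?_, ?_, ?_⟩
  · haveI := hnil
    exact Group.nilpotent_of_surjective (N.equivMapOfInjective X.subtype X.subtype_injective).toMonoidHom
      (MulEquiv.surjective _)
  · intro x hx
    obtain ⟨g, hg⟩ := htr x hx
    obtain ⟨⟨n, h⟩, hnh⟩ := hc.2 g
    refine ⟨((n : X) : Perm α), ⟨n, n.2, rfl⟩, ?_⟩
    rw [← hg, ← hnh]
    show _ = ((n : X) : Perm α) (((h : X) : Perm α) d)
    rw [(memH (h : X)).mp h.2]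
  · rintro _ ⟨n, hn', rfl⟩ hnd
    rcases (hchar n).mp hn' with h | h
    · rw [h]; rfl
    · exact absurd hnd (h d hdA)
  · intro u
    constructor
    · rintro ⟨n, hn', rfl⟩
      refine ⟨n.2, ((hchar n).mp hn').imp (fun h => by rw [h]; rfl) id⟩
    · rintro ⟨huX, h⟩
      exact ⟨⟨u, huX⟩, (hchar _).mpr (h.imp (fun e => Subtype.ext e) id), rfl⟩

/-- The structure with odd stabilizers of order at least 3: either `k = 3` and the number of other
points is even, or the group is small. -/
theorem Semireg.odd_core (hS : Semireg G k) (hG : IsMultiplyPretransitive G α k) (hk : 3 ≤ k)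
    (hn : k + 4 ≤ Fintype.card α) (s : Finset α) (hs : s.card = k) (hodd : Odd (Nat.card (fixIn G s)))
    (h3 : 3 ≤ Nat.card (fixIn G s)) : k = 3 ∧ Even (Fintype.card α - k) := by
  classical
  obtain ⟨d, hd⟩ : s.Nonempty := Finset.card_pos.mp (by omega)
  have hne : fixIn G s ≠ ⊥ := fun h => by rw [h, Subgroup.card_bot] at h3; omega
  obtain ⟨F, hFX, hFnil, hFtr, hFfree, hFchar⟩ := exists_kernel hG (by omega) hS s hs d hd hne
  haveI := hFnil
  set A := s.erase d with hA
  have hdA : d ∉ A := by simp [hA]
  have hAc : A.card + 1 = k := by rw [hA, Finset.card_erase_add_one hd, hs]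
  -- the kernel is regular off `A`
  have huA : ∀ u ∈ F, ∀ c ∈ A, u c = c := fun u hu => (mem_fixIn.mp (hFX hu)).2
  have hud : ∀ u ∈ F, u d ∉ A := fun u hu hm => hdA (u.injective (huA u hu _ hm) ▸ hm)
  have hinj : ∀ u ∈ F, ∀ v ∈ F, u d = v d → u = v := fun u hu v hv h =>
    (inv_mul_eq_one.mp (hFfree _ (mul_mem (inv_mem hv) hu) (by
      rw [Perm.mul_apply, h, Perm.coe_inv, Equiv.symm_apply_apply]))).symm
  have hFcard : Nat.card F = Fintype.card α - A.card := by
    rw [← Finset.card_compl, ← Fintype.card_coe, ← Nat.card_eq_fintype_card]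
    refine Nat.card_eq_of_bijective (fun u : F => (⟨(u : Perm α) d, by simpa using hud u u.2⟩ : ↥Aᶜ))
      ⟨fun u v h => Subtype.ext (hinj u u.2 v v.2 (congrArg Subtype.val h)), fun x => ?_⟩
    obtain ⟨u, hu, hux⟩ := hFtr x (Finset.mem_compl.mp x.2)
    exact ⟨⟨u, hu⟩, Subtype.ext hux⟩
  -- the two kinds of normalizing elements
  have hconjF : ∀ w ∈ G, (∀ c ∈ A, w c ∈ A) → ∀ u ∈ F, w * u * w⁻¹ ∈ F := by
    intro w hw hwA u hu
    have hwA' : ∀ c ∈ A, w⁻¹ c ∈ A := by
      intro c hc
      have : A.image w = A := Finset.eq_of_subset_of_card_le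
        (Finset.image_subset_iff.mpr hwA) (by rw [Finset.card_image_of_injective _ w.injective])
      rw [← this] at hc
      obtain ⟨c', hc', rfl⟩ := Finset.mem_image.mp hc
      simpa using hc'
    obtain ⟨huX, hu'⟩ := (hFchar u).mp hu
    refine (hFchar _).mpr ⟨mem_fixIn.mpr ⟨mul_mem (mul_mem hw (mem_fixIn.mp huX).1) (inv_mem hw),
      fun c hc => ?_⟩, ?_⟩
    · rw [Perm.mul_apply, Perm.mul_apply, (mem_fixIn.mp huX).2 _ (hwA' c hc)]; simp
    rcases hu' with rfl | hu'
    · exact Or.inl (by group)
    refine Or.inr fun x hx h => hu' (w⁻¹ x) (fun hm => hx ?_) ?_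
    · simpa using hwA _ hm
    · rw [Perm.mul_apply, Perm.mul_apply] at h
      apply w.injective
      rw [h]; simp
  have hyF : ∀ y : fixIn G s, ∀ u ∈ F, (y : Perm α) * u * (y : Perm α)⁻¹ ∈ F := fun y => by
    refine hconjF _ (mem_fixIn.mp y.2).1 fun c hc => ?_
    rw [(mem_fixIn.mp y.2).2 c (Finset.mem_of_mem_erase hc)]; exact hc
  have hyd : ∀ y : fixIn G s, (y : Perm α) d = d := fun y => (mem_fixIn.mp y.2).2 d hd
  -- the stabilizer acts freely on the kernel
  have hfree : ∀ y : fixIn G s, ∀ u ∈ F, u ≠ 1 → (y : Perm α) * u * (y : Perm α)⁻¹ = u → y = 1 := by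
    intro y u hu hu1 h
    refine Subtype.ext (hS.eq_one (mem_fixIn.mp y.2).1 hs (mem_fixIn.mp y.2).2 (y := u d) (fun hm => ?_) ?_)
    · rcases Finset.mem_insert.mp (Finset.insert_erase hd ▸ hm : u d ∈ insert d A) with e | e
      · exact hu1 (hFfree u hu e)
      · exact hud u hu e
    · have := congrFun (congrArg DFunLike.coe (mul_inv_eq_iff_eq_mul.mp h)) d
      simpa [hyd y] using this
  have orbit_dvd : ∀ K : Subgroup F, (∀ y : fixIn G s, ∀ u : F, u ∈ K →
      (⟨_, hyF y u u.2⟩ : F) ∈ K) → Nat.card (fixIn G s) ∣ Nat.card K - 1 := by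
    intro K hK
    letI act : MulAction (fixIn G s) {u : K // u ≠ 1} :=
      { smul := fun y u => ⟨⟨_, hK y _ u.1.2⟩, fun e => u.2 (Subtype.ext (Subtype.ext (by
          have e' : (y : Perm α) * ((u.1 : F) : Perm α) * (y : Perm α)⁻¹ = 1 :=
            congrArg (fun q : K => ((q : F) : Perm α)) e
          exact conj_eq_one_iff.mp e')))⟩
        one_smul := fun u => Subtype.ext (Subtype.ext (Subtype.ext (by
          show ((1 : fixIn G s) : Perm α) * _ * _ = _
          simp)))
        mul_smul := fun y y' u => Subtype.ext (Subtype.ext (Subtype.ext (by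
          show ((y * y' : fixIn G s) : Perm α) * _ * ((y * y' : fixIn G s) : Perm α)⁻¹ =
            (y : Perm α) * ((y' : Perm α) * _ * (y' : Perm α)⁻¹) * (y : Perm α)⁻¹
          rw [Subgroup.coe_mul]; group))) }
    have := free_card_dvd (K := fixIn G s) (Y := {u : K // u ≠ 1}) fun u =>
      (Subgroup.eq_bot_iff_forall _).mpr fun y hy => hfree y _ (u.1 : F).2
        (fun e => u.2 (Subtype.ext (Subtype.ext e)))
        (congrArg (fun q : {u : K // u ≠ 1} => ((q.1 : F) : Perm α)) hy)
    rwa [show Nat.card {u : K // u ≠ 1} = Nat.card K - 1 from by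
      haveI := Fintype.ofFinite K
      rw [Nat.card_eq_fintype_card, Nat.card_eq_fintype_card, Fintype.card_subtype_compl,
        Fintype.card_subtype_eq]] at this
  -- an exchanging involution inverts the kernel
  have key : ∀ z ∈ G, z * z = 1 → ∀ a ∈ A, ∀ b ∈ A, a ≠ b → z a = b → z d = d →
      (∀ c ∈ A, c ≠ a → c ≠ b → z c = c) →
      (∀ u ∈ F, z * u * z = u⁻¹) ∧ (fixSet z).card + 2 = k := by
    intro z hz hzz a ha b hb hab hza hzd hzc
    have hzz' : z⁻¹ = z := inv_eq_of_mul_eq_one_right hzz
    have hzb : z b = a := by rw [← hza, ← Perm.mul_apply, hzz, Perm.one_apply]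
    have hzA : ∀ c ∈ A, z c ∈ A := by
      intro c hc
      by_cases h1 : c = a
      · rw [h1, hza]; exact hb
      by_cases h2 : c = b
      · rw [h2, hzb]; exact ha
      rw [hzc c hc h1 h2]; exact hc
    have hz1 : z ≠ 1 := fun e => hab (by rw [← hza, e, Perm.one_apply])
    have hzF : ∀ u ∈ F, z * u * z ∈ F := fun u hu => by
      have := hconjF z hz hzA u hu; rwa [hzz'] at this
    set φ := conjInvol F z hzz hzF with hφdef
    have hφ : ∀ u, φ (φ u) = u := fun u => φ.left_inv u
    -- fixed points of `z` come from fixed points of `φ`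
    set P := ((A.erase a).erase b) with hP
    have hfixA : P ⊆ fixSet z := fun c hc => by
      simp only [hP, Finset.mem_erase] at hc
      exact mem_fixSet.mpr (hzc c hc.2.2 hc.2.1 hc.1)
    have hPc : P.card + 2 + 1 = k := by
      rw [hP, Finset.card_erase_of_mem (by simp [hb, hab.symm]), Finset.card_erase_of_mem ha]
      have : 2 ≤ A.card := Finset.one_lt_card.mpr ⟨a, ha, b, hb, hab⟩
      omega
    let e : {u : F // φ u = u} → ↥(fixSet z \ P) := fun u => ⟨((u : F) : Perm α) d, by
      refine Finset.mem_sdiff.mpr ⟨mem_fixSet.mpr ?_, fun hm => hud _ (u : F).2 ?_⟩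
      · have := congrFun (congrArg DFunLike.coe ((conjInvol_fix_iff F z hzz hzF _).mp u.2)) d
        simpa [hzd] using this
      · simp only [hP, Finset.mem_erase] at hm; exact hm.2.2⟩
    have heinj : Function.Injective e := fun u v h =>
      Subtype.ext (Subtype.ext (hinj _ (u : F).2 _ (v : F).2 (congrArg Subtype.val h)))
    have hC3 : Nat.card {u : F // φ u = u} ≤ 3 := by
      refine (Nat.card_le_card_of_injective e heinj).trans ?_
      rw [Nat.card_eq_fintype_card, Fintype.card_coe, Finset.card_sdiff_of_subset hfixA]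
      have := hS.fix_le hz hz1
      omega
    -- the stabilizer must centralize `z`
    have hcent : ∀ y : fixIn G s, z * y = y * z := by
      by_contra hnot
      push Not at hnot
      obtain ⟨y, hy⟩ := hnot
      have hy0 : z * y * z * (y : Perm α)⁻¹ ∈ fixIn G s := by
        refine mem_fixIn.mpr ⟨mul_mem (mul_mem (mul_mem hz (mem_fixIn.mp y.2).1) hz)
          (inv_mem (mem_fixIn.mp y.2).1), fun c hc => ?_⟩
        have hyc := (mem_fixIn.mp y.2).2
        have hzs : z c ∈ s := by
          by_cases hcd : c = d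
          · rw [hcd, hzd]; exact hd
          · exact Finset.mem_of_mem_erase (hzA c (Finset.mem_erase.mpr ⟨hcd, hc⟩))
        have : (y : Perm α)⁻¹ c = c := by rw [Perm.coe_inv, Equiv.symm_apply_eq, hyc c hc]
        rw [Perm.mul_apply, Perm.mul_apply, Perm.mul_apply, this, hyc _ hzs, ← Perm.mul_apply, hzz,
          Perm.one_apply]
      set y0 : fixIn G s := ⟨_, hy0⟩ with hy0def
      have hy01 : y0 ≠ 1 := fun e => hy (by
        have e' : z * y * z * (y : Perm α)⁻¹ = 1 := congrArg Subtype.val e
        rw [mul_inv_eq_one] at e'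
        calc z * (y : Perm α) = z * y * (z * z) := by rw [hzz, mul_one]
          _ = z * y * z * z := by group
          _ = y * z := by rw [e'])
      set V := Subgroup.center F
      have hVφ : ∀ v : F, v ∈ V → φ v ∈ V := fun v hv => Subgroup.mem_center_iff.mpr fun x => by
        have := congrArg φ (Subgroup.mem_center_iff.mp hv (φ x))
        rwa [map_mul, map_mul, hφ] at this
      -- the conjugate involution
      set z' := (y : Perm α) * z * (y : Perm α)⁻¹ with hz'
      have hz'z' : z' * z' = 1 := by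
        rw [hz']
        calc _ = (y : Perm α) * (z * z) * (y : Perm α)⁻¹ := by group
          _ = 1 := by rw [hzz, mul_one, mul_inv_cancel]
      have hz'F : ∀ u ∈ F, z' * u * z' ∈ F := fun u hu => by
        have := hyF y _ (hzF _ (hyF y⁻¹ u hu))
        convert this using 1
        rw [hz', Subgroup.coe_inv, inv_inv]
        group
      set ψ := conjInvol F z' hz'z' hz'F
      have hψ : ∀ u, ψ (ψ u) = u := fun u => ψ.left_inv u
      have hVψ : ∀ v : F, v ∈ V → ψ v ∈ V := fun v hv => Subgroup.mem_center_iff.mpr fun x => by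
        have := congrArg ψ (Subgroup.mem_center_iff.mp hv (ψ x))
        rwa [map_mul, map_mul, hψ] at this
      letI : CommGroup V := { (inferInstance : Group V) with
        mul_comm := fun a b => Subtype.ext (Subgroup.mem_center_iff.mp b.2 a) }
      let p : V ≃* V :=
        { toFun := fun v => ⟨φ v, hVφ v v.2⟩
          invFun := fun v => ⟨φ v, hVφ v v.2⟩
          left_inv := fun v => Subtype.ext (hφ v)
          right_inv := fun v => Subtype.ext (hφ v)
          map_mul' := fun u v => Subtype.ext (map_mul φ _ _) }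
      let q : V ≃* V :=
        { toFun := fun v => ⟨ψ v, hVψ v v.2⟩
          invFun := fun v => ⟨ψ v, hVψ v v.2⟩
          left_inv := fun v => Subtype.ext (hψ v)
          right_inv := fun v => Subtype.ext (hψ v)
          map_mul' := fun u v => Subtype.ext (map_mul ψ _ _) }
      have hcardV := card_eq_of_two_involutions p q (fun v => p.left_inv v) (fun v => q.left_inv v) (by
        intro v hv
        by_contra hv1
        have hv' : z * (z' * ((v : F) : Perm α) * z') * z = ((v : F) : Perm α) :=
          congrArg (fun w : V => ((w : F) : Perm α)) hv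
        refine hy01 (hfree y0 _ (v : F).2 (fun e => hv1 (Subtype.ext (Subtype.ext e))) ?_)
        have hzz'' : z' * z = (z * z')⁻¹ := by
          rw [mul_inv_rev, inv_eq_of_mul_eq_one_right hz'z', hzz']
        show z * y * z * (y : Perm α)⁻¹ * _ * (z * y * z * (y : Perm α)⁻¹)⁻¹ = _
        rw [show z * y * z * (y : Perm α)⁻¹ = z * z' by rw [hz']; group, ← hzz'']
        conv_rhs => rw [← hv']
        group)
      -- the two fixed subgroups are conjugate
      have hpq : Nat.card {v : V // q v = v} = Nat.card {v : V // p v = v} := by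
        have mapV : ∀ (w : fixIn G s) (v : F), v ∈ V → (⟨_, hyF w v v.2⟩ : F) ∈ V := fun w v hv =>
          Subgroup.mem_center_iff.mpr fun x => Subtype.ext (by
            have := congrArg (fun q : F => (w : Perm α) * (q : Perm α) * (w : Perm α)⁻¹)
              (Subgroup.mem_center_iff.mp hv ⟨_, hyF w⁻¹ x x.2⟩)
            simp only [Subgroup.coe_mul, Subgroup.coe_inv, inv_inv] at this
            show (x : Perm α) * ((w : Perm α) * v * (w : Perm α)⁻¹) = (w : Perm α) * v * (w : Perm α)⁻¹ * x
            calc _ = _ := by group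
              _ = _ := this
              _ = _ := by group)
        refine Nat.card_congr
          { toFun := fun v => ⟨⟨_, mapV y⁻¹ _ v.1.2⟩, ?_⟩
            invFun := fun v => ⟨⟨_, mapV y _ v.1.2⟩, ?_⟩
            left_inv := fun v => Subtype.ext (Subtype.ext (Subtype.ext (by simp [mul_assoc])))
            right_inv := fun v => Subtype.ext (Subtype.ext (Subtype.ext (by simp [mul_assoc]))) }
        · have h := congrArg (fun w : V => ((w : F) : Perm α)) v.2
          refine Subtype.ext (Subtype.ext ?_)
          change z' * _ * z' = _ at h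
          show z * ((y : Perm α)⁻¹ * ((v.1 : F) : Perm α) * (y : Perm α)⁻¹⁻¹) * z =
            (y : Perm α)⁻¹ * ((v.1 : F) : Perm α) * (y : Perm α)⁻¹⁻¹
          rw [inv_inv]
          conv_rhs => rw [← h]
          rw [hz']
          group
        · have h := congrArg (fun w : V => ((w : F) : Perm α)) v.2
          refine Subtype.ext (Subtype.ext ?_)
          change z * _ * z = _ at h
          show z' * ((y : Perm α) * ((v.1 : F) : Perm α) * (y : Perm α)⁻¹) * z' =
            (y : Perm α) * ((v.1 : F) : Perm α) * (y : Perm α)⁻¹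
          conv_rhs => rw [← h]
          rw [hz']
          group
      rw [hpq] at hcardV
      have hc3 : Nat.card {v : V // p v = v} ≤ 3 := le_trans
        (Nat.card_le_card_of_injective
          (fun v => (⟨(v.1 : F), congrArg Subtype.val v.2⟩ : {u : F // φ u = u}))
          (fun u v h => Subtype.ext (Subtype.ext (congrArg (fun q : {u : F // φ u = u} => (q : F)) h)))) hC3
      have hVK : ∀ w : fixIn G s, ∀ v : F, v ∈ V → (⟨_, hyF w v v.2⟩ : F) ∈ V := fun w v hv =>
        Subgroup.mem_center_iff.mpr fun x => Subtype.ext (by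
          have := congrArg (fun q : F => (w : Perm α) * (q : Perm α) * (w : Perm α)⁻¹)
            (Subgroup.mem_center_iff.mp hv ⟨_, hyF w⁻¹ x x.2⟩)
          simp only [Subgroup.coe_mul, Subgroup.coe_inv, inv_inv] at this
          show (x : Perm α) * ((w : Perm α) * v * (w : Perm α)⁻¹) = (w : Perm α) * v * (w : Perm α)⁻¹ * x
          calc _ = _ := by group
            _ = _ := this
            _ = _ := by group)
      have hd3 := orbit_dvd V hVK
      have hV1 : 1 < Nat.card V := by
        haveI : Nontrivial F := Finite.one_lt_card_iff_nontrivial.mp (by rw [hFcard]; omega)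
        exact (Subgroup.one_lt_card_iff_ne_bot V).mpr (Group.IsNilpotent.center_ne_bot _)
      generalize hcdef : Nat.card {v : V // p v = v} = c at hcardV hc3
      have hc2 : c = 2 ∧ Nat.card (fixIn G s) = 3 := by
        rw [hcardV] at hd3 hV1
        have : c = 2 ∨ c = 3 := by
          rcases Nat.lt_or_ge c 2 with h | h
          · interval_cases c <;> simp at hV1
          · omega
        rcases this with rfl | rfl
        · exact ⟨rfl, by have := Nat.le_of_dvd (by norm_num) hd3; omega⟩
        · exfalso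
          have h8 : Nat.card (fixIn G s) ∣ 8 := hd3
          have := Nat.le_of_dvd (by norm_num) h8
          interval_cases (Nat.card (fixIn G s)) <;> revert h8 hodd <;> decide
      obtain ⟨rfl, hh3⟩ := hc2
      -- the centre has exponent 2
      have hexp : ∀ v ∈ V, v * v = (1 : F) := by
        obtain ⟨i, hi⟩ := exists_prime_orderOf_dvd_card' (G := V) 2 (by rw [hcardV]; norm_num)
        have hi1 : ((i : F) : Perm α) ≠ 1 := fun e => by
          have : i = 1 := Subtype.ext (Subtype.ext e)
          rw [this, orderOf_one] at hi; norm_num at hi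
        have hii : ((i : F) : Perm α) * (i : F) = 1 := by
          have h1 := congrArg (fun w : V => ((w : F) : Perm α)) (pow_orderOf_eq_one i)
          rw [hi] at h1
          simpa [pow_two] using h1
        haveI := Fintype.ofFinite V
        have horb : ∀ v : V, v ≠ 1 → ∃ w : fixIn G s,
            (w : Perm α) * ((i : F) : Perm α) * (w : Perm α)⁻¹ = ((v : F) : Perm α) := by
          let f : fixIn G s → {v : V // v ≠ 1} := fun w => ⟨⟨_, hVK w _ i.2⟩, fun e => hi1 (by
            have e' : (w : Perm α) * ((i : F) : Perm α) * (w : Perm α)⁻¹ = 1 :=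
              congrArg (fun q : V => ((q : F) : Perm α)) e
            exact conj_eq_one_iff.mp e')⟩
          have hbij : Function.Bijective f := (Nat.bijective_iff_injective_and_card f).mpr ⟨fun w w' h => by
            have h' : (w : Perm α) * ((i : F) : Perm α) * (w : Perm α)⁻¹ =
                (w' : Perm α) * ((i : F) : Perm α) * (w' : Perm α)⁻¹ :=
              congrArg (fun q : {v : V // v ≠ 1} => ((q.1 : F) : Perm α)) h
            have := hfree (w'⁻¹ * w) _ (i : F).2 hi1 (by
              rw [Subgroup.coe_mul, Subgroup.coe_inv]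
              calc (w' : Perm α)⁻¹ * w * _ * ((w' : Perm α)⁻¹ * w)⁻¹
                  = (w' : Perm α)⁻¹ * ((w : Perm α) * (i : F) * (w : Perm α)⁻¹) * w' := by group
                _ = _ := by rw [h']; group)
            exact (inv_mul_eq_one.mp this).symm, by
              rw [hh3, Nat.card_eq_fintype_card (α := {v : V // v ≠ 1}), Fintype.card_subtype_compl,
                Fintype.card_subtype_eq, ← Nat.card_eq_fintype_card, hcardV]⟩
          intro v hv
          obtain ⟨w, hw⟩ := hbij.2 ⟨v, hv⟩
          exact ⟨w, congrArg (fun q : {v : V // v ≠ 1} => ((q.1 : F) : Perm α)) hw⟩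
        intro v hv
        by_cases hv1 : (⟨v, hv⟩ : V) = 1
        · rw [show v = 1 from congrArg Subtype.val hv1, mul_one]
        obtain ⟨w, hw⟩ := horb _ hv1
        refine Subtype.ext ?_
        show (v : Perm α) * v = 1
        rw [show (v : Perm α) = _ from hw.symm]
        calc _ = (w : Perm α) * (((i : F) : Perm α) * (i : F)) * (w : Perm α)⁻¹ := by group
          _ = 1 := by rw [hii, mul_one, mul_inv_cancel]
      have htop := center_eq_top_of_few_fixed φ hφ (by rw [hcardV]) hexp hC3 (by
        rw [← hcdef]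
        exact Nat.card_congr (Equiv.subtypeEquivRight fun v => ⟨fun h => Subtype.ext h, congrArg Subtype.val⟩))
      have : Nat.card F = 4 := by
        rw [← Subgroup.card_top, ← htop]; exact hcardV
      omega
    -- so the fixed points of `φ` are trivial
    have hC1 : ∀ u : F, φ u = u → u = 1 := by
      intro u hu
      by_contra hu1
      let C : Subgroup F := MonoidHom.eqLocus φ.toMonoidHom (MonoidHom.id F)
      have hCK : ∀ y : fixIn G s, ∀ v : F, v ∈ C → (⟨_, hyF y v v.2⟩ : F) ∈ C := fun y v hv => by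
        show φ _ = _
        refine (conjInvol_fix_iff F z hzz hzF _).mpr ?_
        have h1 := (conjInvol_fix_iff F z hzz hzF v).mp hv
        show z * ((y : Perm α) * v * (y : Perm α)⁻¹) = (y : Perm α) * v * (y : Perm α)⁻¹ * z
        have h2 : z * (y : Perm α) = y * z := hcent y
        have h3' : (y : Perm α)⁻¹ * z = z * (y : Perm α)⁻¹ := by
          rw [inv_mul_eq_iff_eq_mul, ← mul_assoc, ← h2, mul_inv_cancel_right]
        calc _ = z * (y : Perm α) * v * (y : Perm α)⁻¹ := by group
          _ = (y : Perm α) * (z * v) * (y : Perm α)⁻¹ := by rw [h2]; group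
          _ = (y : Perm α) * v * (z * (y : Perm α)⁻¹) := by rw [h1]; group
          _ = _ := by rw [← h3']; group
      have hd3 := orbit_dvd C hCK
      have hC2 : 2 ≤ Nat.card C := by
        have : Nontrivial C := ⟨⟨u, hu⟩, 1, fun e => hu1 (congrArg Subtype.val e)⟩
        exact Finite.one_lt_card
      have hC3' : Nat.card C ≤ 3 := hC3
      have := Nat.le_of_dvd (by omega) hd3
      omega
    refine ⟨?_, ?_⟩
    · intro u hu
      let δ : F → F := fun v => v⁻¹ * φ v
      obtain ⟨v, hv⟩ := (Finite.injective_iff_surjective.mp (show Function.Injective δ from fun a b h => by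
        have h' : a⁻¹ * φ a = b⁻¹ * φ b := h
        have := hC1 (b * a⁻¹) (by
          rw [map_mul, map_inv, mul_inv_eq_iff_eq_mul, mul_assoc, h', mul_inv_cancel_left])
        exact (mul_inv_eq_one.mp this).symm)) ⟨u, hu⟩
      have : φ ⟨u, hu⟩ = (⟨u, hu⟩ : F)⁻¹ := by
        rw [← hv]
        show φ (v⁻¹ * φ v) = (v⁻¹ * φ v)⁻¹
        rw [map_mul, map_inv, hφ, mul_inv_rev, inv_inv]
      exact congrArg Subtype.val this
    · have heq : fixSet z = insert d P := by
        refine Finset.Subset.antisymm (fun x hx => ?_) ?_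
        · rw [mem_fixSet] at hx
          by_cases hxA : x ∈ A
          · refine Finset.mem_insert_of_mem ?_
            simp only [hP, Finset.mem_erase]
            exact ⟨fun e => hab (by rw [e, hzb] at hx; exact hx),
              fun e => hab (by rw [e, hza] at hx; exact hx.symm), hxA⟩
          · obtain ⟨u, hu, hux⟩ := hFtr x hxA
            have : φ ⟨u, hu⟩ = ⟨u, hu⟩ := Subtype.ext (hinj _ (hzF u hu) _ hu (by
              rw [Perm.mul_apply, Perm.mul_apply, hzd, hux, hx]))
            have h1 : u = 1 := congrArg Subtype.val (hC1 _ this)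
            rw [← hux, h1, Perm.one_apply]
            exact Finset.mem_insert_self _ _
        · exact Finset.insert_subset_iff.mpr ⟨mem_fixSet.mpr hzd, hfixA⟩
      rw [heq, Finset.card_insert_of_notMem (fun hm => hdA (by
        simp only [hP, Finset.mem_erase] at hm; exact hm.2.2))]
      omega
  -- build exchanging involutions
  have mk : ∀ a ∈ A, ∀ b ∈ A, ∃ z ∈ G, z * z = 1 ∧ ∀ c ∈ s, z c = Equiv.swap a b c := by
    intro a ha b hb
    obtain ⟨g, hg, hgs⟩ := exists_swap_lift hG (by omega) s hs.le a b
    have hmem : ∀ c ∈ s, Equiv.swap a b c ∈ s := fun c hc => by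
      rw [Equiv.swap_apply_def]
      split_ifs
      · exact Finset.mem_of_mem_erase hb
      · exact Finset.mem_of_mem_erase ha
      · exact hc
    obtain ⟨z, hz, hzz, hzg⟩ := exists_involution_lift hg s
      (fun c hc => by rw [hgs c hc, hgs _ (hmem c hc), Equiv.swap_apply_self]) hodd
    exact ⟨z, hz, hzz, fun c hc => (hzg c hc).trans (hgs c hc)⟩
  have use_key : ∀ a ∈ A, ∀ b ∈ A, a ≠ b → ∀ z ∈ G, z * z = 1 → (∀ c ∈ s, z c = Equiv.swap a b c) →
      (∀ u ∈ F, z * u * z = u⁻¹) ∧ (fixSet z).card + 2 = k := by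
    intro a ha b hb hab z hz hzz hzs
    refine key z hz hzz a ha b hb hab ?_ ?_ fun c hc hca hcb => ?_
    · rw [hzs a (Finset.mem_of_mem_erase ha), Equiv.swap_apply_left]
    · rw [hzs d hd, Equiv.swap_apply_of_ne_of_ne (fun (e : d = a) => hdA (e ▸ ha)) (fun (e : d = b) => hdA (e ▸ hb))]
    · rw [hzs c (Finset.mem_of_mem_erase hc), Equiv.swap_apply_of_ne_of_ne hca hcb]
  obtain ⟨a, ha, b, hb, hab⟩ := Finset.one_lt_card.mp (show 1 < A.card by omega)
  obtain ⟨z, hz, hzz, hzs⟩ := mk a ha b hb
  obtain ⟨hzi, hzf⟩ := use_key a ha b hb hab z hz hzz hzs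
  refine ⟨?_, ?_⟩
  · by_contra hk4
    obtain ⟨c, hc⟩ := Finset.card_pos.mp (show 0 < ((A.erase a).erase b).card by
      rw [Finset.card_erase_of_mem (by simp [hb, hab.symm]), Finset.card_erase_of_mem ha]; omega)
    simp only [Finset.mem_erase] at hc
    obtain ⟨hcb, hca, hcA⟩ := hc
    obtain ⟨w, hw, hww, hws⟩ := mk a ha c hcA
    obtain ⟨hwi, -⟩ := use_key a ha c hcA (Ne.symm hca) w hw hww hws
    have hwz : ∀ x, x ∉ A → (z * w) x = x := by
      intro x hx
      obtain ⟨u, hu, rfl⟩ := hFtr x hx
      have e1 : z * (w * u * w) * z = u := by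
        rw [hwi u hu, hzi _ (inv_mem hu), inv_inv]
      have hwd : w d = d := by
        rw [hws d hd, Equiv.swap_apply_of_ne_of_ne (fun (e : d = a) => hdA (e ▸ ha)) (fun (e : d = c) => hdA (e ▸ hcA))]
      have hzd : z d = d := by
        rw [hzs d hd, Equiv.swap_apply_of_ne_of_ne (fun (e : d = a) => hdA (e ▸ ha)) (fun (e : d = b) => hdA (e ▸ hb))]
      conv_rhs => rw [← e1]
      simp only [Perm.mul_apply]
      rw [hzd, hwd]
    have h1 := hS (z * w) (mul_mem hz hw) ({a, b, c} : Finset α)ᶜ
      (by rw [Finset.card_compl]; have := Finset.card_le_three (a := a) (b := b) (c := c); omega)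
      (fun x hx => by
        simp only [Finset.mem_compl, Finset.mem_insert, Finset.mem_singleton, not_or] at hx
        by_cases hxA : x ∈ A
        · have hxs := Finset.mem_of_mem_erase hxA
          rw [Perm.mul_apply, hws x hxs, Equiv.swap_apply_of_ne_of_ne hx.1 hx.2.2, hzs x hxs,
            Equiv.swap_apply_of_ne_of_ne hx.1 hx.2.1]
        · exact hwz x hxA)
    have := congrFun (congrArg DFunLike.coe h1) c
    rw [Perm.mul_apply, Perm.one_apply, hws c (Finset.mem_of_mem_erase hcA), Equiv.swap_apply_right,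
      hzs a (Finset.mem_of_mem_erase ha), Equiv.swap_apply_left] at this
    exact hcb this.symm
  · haveI : Fact (Nat.Prime 2) := ⟨Nat.prime_two⟩
    have hmod := fixSet_modEq (p := 2) (j := 1) (g := z) (by rw [pow_one, pow_two, hzz])
    rw [Nat.even_iff]
    unfold Nat.ModEq at hmod
    omega

end Cfsg.Agent.Lib.LWag
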