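import Cfsg.Agent.Lib.LWag.Induct
import Mathlib.GroupTheory.GroupAction.SubMulAction.Combination

/-!
Set-transitivity in terms of images of finite sets.
-/

set_option autoImplicit false

namespace Cfsg.Agent.Lib.LWag

open Equiv MulAction
open scoped Pointwise

variable {α : Type*} [Fintype α] [DecidableEq α] {G : Subgroup (Perm α)}

theorem exists_image {j : ℕ} (h : IsPretransitive G (Set.powersetCard α j)) (s t : Finset α)
    (hs : s.card = j) (ht : t.card = j) : ∃ g ∈ G, s.image g = t := by
  obtain ⟨g, hg⟩ := h.exists_smul_eq (⟨s, hs⟩ : Set.powersetCard α j) ⟨t, ht⟩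
  refine ⟨g, g.2, ?_⟩
  have := congrArg Subtype.val hg
  exact this

theorem choose_dvd {j : ℕ} (hj : j ≤ Fintype.card α) (h : IsPretransitive G (Set.powersetCard α j)) :
    (Fintype.card α).choose j ∣ Nat.card G := by
  obtain ⟨s, -, hs⟩ := Finset.exists_subset_card_eq (s := (Finset.univ : Finset α)) (n := j)
    (by rw [Finset.card_univ]; exact hj)
  have := index_stabilizer_of_transitive (G := G) (⟨s, hs⟩ : Set.powersetCard α j)
  rw [Set.powersetCard.card, Nat.card_eq_fintype_card (α := α)] at this
  exact this ▸ Subgroup.index_dvd_card _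

theorem card_fixingSubgroup_eq (s : Finset α) :
    Nat.card (fixingSubgroup G (s : Set α)) = Nat.card (fixIn G s) :=
  Nat.card_congr
    { toFun := fun g => ⟨((g : G) : Perm α), mem_fixIn.mpr
        ⟨(g : G).2, fun x hx => (mem_fixingSubgroup_iff G).mp g.2 x hx⟩⟩
      invFun := fun g => ⟨⟨g, (mem_fixIn.mp g.2).1⟩,
        (mem_fixingSubgroup_iff G).mpr fun x hx => (mem_fixIn.mp g.2).2 x hx⟩
      left_inv := fun _ => rfl
      right_inv := fun _ => rfl }

/-- The order of a `k`-transitive group. -/
theorem card_eq_of_trans {k : ℕ} (hG : IsMultiplyPretransitive G α k) {s : Finset α} (hs : s.card = k) :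
    Nat.card G = (Fintype.card α).descFactorial k * Nat.card (fixIn G s) := by
  subst hs
  have hi := IsMultiplyPretransitive.index_of_fixingSubgroup_eq (G := G) (s : Set α)
    (by rw [Set.ncard_coe_finset]; exact hG)
  rw [Set.ncard_coe_finset, Nat.card_eq_fintype_card (α := α)] at hi
  rw [← (fixingSubgroup G (s : Set α)).index_mul_card, hi, card_fixingSubgroup_eq, mul_comm (Nat.choose _ _),
    ← Nat.descFactorial_eq_factorial_mul_choose]

theorem semireg_of_card {k : ℕ} (h : ∀ t : Finset α, t.card = k + 1 → Nat.card (fixIn G t) ≤ 1) :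
    Semireg G k := by
  intro g hg t ht hfix
  obtain ⟨t', ht', htc⟩ := Finset.exists_subset_card_eq ht
  have h1 := Subgroup.eq_bot_of_card_le (fixIn G t') (h t' htc)
  exact Subgroup.mem_bot.mp (h1 ▸ mem_fixIn.mpr ⟨hg, fun x hx => hfix x (ht' hx)⟩)

end Cfsg.Agent.Lib.LWag
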