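import Cfsg.Agent.Lib.LWag.Structure
import Cfsg.Agent.S0743
import Mathlib.GroupTheory.Sylow

/-!
Every highly transitive group induces the alternating group on some set one larger.
-/

set_option autoImplicit false

namespace Cfsg.Agent.Lib.LWag

open Equiv MulAction
open scoped Pointwise

universe u

/-- Every `k`-transitive group, `4 ≤ k < n`, induces every even permutation on some `(k+1)`-set. -/
theorem exists_alt_set (n : ℕ) : ∀ {α : Type u} [Fintype α] [DecidableEq α] (G : Subgroup (Perm α)) {k : ℕ},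
    Fintype.card α = n → 4 ≤ k → k < Fintype.card α → IsMultiplyPretransitive G α k →
    ∃ Δ : Finset α, Δ.card = k + 1 ∧
      ∀ σ : Perm ↥Δ, σ ∈ alternatingGroup ↥Δ → ∃ g ∈ G, ∀ x : ↥Δ, g (x : α) = σ x := by
  induction n using Nat.strong_induction_on with
  | _ n ih =>
  intro α _ _ G k hcard hk hkn hG
  classical
  by_cases hS : Semireg G k
  · rcases hS.structure_thm hG hk hkn with ⟨Δ, h1, h2⟩ | ⟨-, hA⟩
    · exact ⟨Δ, h1, fun σ _ => h2 σ⟩
    · obtain ⟨Δ, -, hΔ⟩ := Finset.exists_subset_card_eq (s := (Finset.univ : Finset α)) (n := k + 1)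
        (by rw [Finset.card_univ]; omega)
      refine ⟨Δ, hΔ, fun σ hσ => ⟨Perm.ofSubtype σ, hA ?_, fun x => Perm.ofSubtype_apply_coe σ x⟩⟩
      rw [Perm.mem_alternatingGroup] at hσ ⊢
      rwa [Perm.sign_ofSubtype]
  -- a prime-power element fixing more than `k` points
  simp only [Semireg, not_forall] at hS
  obtain ⟨g, hg, t, ht, hgt, hg1⟩ := hS
  obtain ⟨p, hp, hpd⟩ := Nat.exists_prime_and_dvd (n := orderOf g) (by rwa [ne_eq, orderOf_eq_one_iff])
  haveI := Fact.mk hp
  set g' := g ^ (orderOf g / p) with hg'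
  have hg'o : orderOf g' = p := by
    rw [hg', orderOf_pow_of_dvd (Nat.div_pos (Nat.le_of_dvd (orderOf_pos g) hpd) hp.pos).ne'
      (Nat.div_dvd_of_dvd hpd), Nat.div_div_self hpd (orderOf_pos g).ne']
  let fixS : Subgroup (Perm α) → Finset α := fun P => Finset.univ.filter fun x => ∀ u ∈ P, u x = x
  have mem_fixS : ∀ P x, x ∈ fixS P ↔ ∀ u ∈ P, u x = x := fun P x => by simp [fixS]
  let good : Subgroup (Perm α) → Prop := fun P => P ≤ G ∧ IsPGroup p P ∧ k + 1 ≤ (fixS P).card
  have hgood : good (Subgroup.zpowers g') := by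
    refine ⟨Subgroup.zpowers_le.mpr (pow_mem hg _), IsPGroup.of_card (n := 1)
      (by rw [Nat.card_zpowers, hg'o, pow_one]), ht.trans (Finset.card_le_card fun x hx => ?_)⟩
    rw [mem_fixS]
    have : Subgroup.zpowers g' ≤ stabilizer (Perm α) x :=
      Subgroup.zpowers_le.mpr (pow_mem (show g ∈ stabilizer (Perm α) x from hgt x hx) _)
    exact fun u hu => this hu
  obtain ⟨P, hle, hPmax⟩ := (Finite.exists_le_maximal (p := good) hgood)
  obtain ⟨hPG, hPp, hPk⟩ := hPmax.prop
  set F := fixS P with hF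
  have hPne : P ≠ ⊥ := fun e => hp.one_lt.ne' (by
    rw [← hg'o, orderOf_eq_one_iff]
    exact (Subgroup.mem_bot).mp (e ▸ hle (Subgroup.mem_zpowers g')))
  have hFn : F.card < n := by
    rw [← hcard, ← Finset.card_univ]
    refine Finset.card_lt_card (Finset.ssubset_univ_iff.mpr fun e => hPne ?_)
    refine (Subgroup.eq_bot_iff_forall _).mpr fun u hu => Equiv.ext fun x => ?_
    exact (mem_fixS P x).mp (by rw [← hF, e]; exact Finset.mem_univ x) u hu
  -- the normalizer acts on the fixed points
  set N := G ⊓ Subgroup.normalizer (P : Set (Perm α)) with hN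
  have hNF : ∀ u : N, ∀ x, ((u : Perm α) x ∈ F) ↔ x ∈ F := by
    have h1 : ∀ u : N, ∀ x ∈ F, (u : Perm α) x ∈ F := by
      intro u x hx
      rw [mem_fixS] at hx ⊢
      intro v hv
      have hv' : (u : Perm α)⁻¹ * v * (u : Perm α)⁻¹⁻¹ ∈ P :=
        (Subgroup.mem_normalizer_iff.mp (inv_mem u.2.2) v).mp hv
      have := hx _ hv'
      rw [inv_inv, Perm.mul_apply, Perm.mul_apply, Perm.coe_inv, Equiv.symm_apply_eq] at this
      exact this
    intro u x
    refine ⟨fun hx => ?_, h1 u x⟩
    have := h1 u⁻¹ _ hx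
    simpa using this
  let ρ : N →* Perm ↥F :=
    { toFun := fun u => (u : Perm α).subtypePerm (hNF u)
      map_one' := by ext x; rfl
      map_mul' := fun u v => by ext x; rfl }
  have hρ : ∀ u : N, ∀ x : F, ((ρ u x : F) : α) = (u : Perm α) x := fun u x => rfl
  let K := ρ.range
  suffices hK : IsMultiplyPretransitive K F k by
    obtain ⟨Δ, hΔ, hΔa⟩ := ih F.card hFn K (Fintype.card_coe F) hk (by rw [Fintype.card_coe]; omega) hK
    refine ⟨Δ.map (Function.Embedding.subtype _), by rw [Finset.card_map, hΔ], fun σ hσ => ?_⟩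
    let e : ↥Δ ≃ ↥(Δ.map (Function.Embedding.subtype (fun x => x ∈ F))) :=
      { toFun := fun x => ⟨((x : F) : α), Finset.mem_map_of_mem _ x.2⟩
        invFun := fun y => ⟨⟨y, by
          obtain ⟨a, -, ha⟩ := Finset.mem_map.mp y.2
          exact ha ▸ a.2⟩, by
          obtain ⟨a, ha, hay⟩ := Finset.mem_map.mp y.2
          convert ha using 1
          exact Subtype.ext hay.symm⟩
        left_inv := fun x => rfl
        right_inv := fun y => rfl }
    obtain ⟨q, ⟨u, rfl⟩, hq⟩ := hΔa (e.symm.permCongr σ) (by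
      rw [Perm.mem_alternatingGroup, Perm.sign_permCongr]
      exact hσ)
    refine ⟨u, u.2.1, fun y => ?_⟩
    obtain ⟨x, rfl⟩ := e.surjective y
    have := congrArg Subtype.val (hq x)
    rw [hρ] at this
    rw [show ((e x : _) : α) = ((x : F) : α) from rfl, this, Equiv.permCongr_apply, Equiv.symm_symm]
    rfl
  -- `k`-subsets of the fixed points
  have hPfix : ∀ y : Finset α, y ⊆ F → P ≤ fixIn G y := fun y hy u hu =>
    mem_fixIn.mpr ⟨hPG hu, fun x hx => (mem_fixS P x).mp (hy hx) u hu⟩
  by_cases hsyl : ∃ y : Finset α, y ⊆ F ∧ y.card = k ∧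
      ∀ R : Subgroup (Perm α), R ≤ fixIn G y → IsPGroup p R → P ≤ R → R = P
  · -- Witt
    obtain ⟨y0, hy0F, hy0, hmax0⟩ := hsyl
    have hcardS : ∀ y : Finset α, y.card = k → ∀ R : Subgroup (Perm α), R ≤ fixIn G y → IsPGroup p R →
        Nat.card R ≤ Nat.card P := by
      intro y hy R hR hRp
      obtain ⟨h, hh, rfl⟩ := exists_map_set hG hkn.le y0 y hy0.le (hy0.trans hy.symm)
      obtain ⟨S, hS⟩ := (hPp.comap_of_injective (fixIn G y0).subtype (Subgroup.subtype_injective _)).exists_le_sylow
      have hSP : (S : Subgroup (fixIn G y0)).map (fixIn G y0).subtype = P := by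
        refine hmax0 _ (Subgroup.map_subtype_le _) (S.isPGroup'.map _) fun v hv => ?_
        exact ⟨⟨v, hPfix y0 hy0F hv⟩, hS hv, rfl⟩
      have hcy := card_fixIn_image (G := G) hh y0
      have hdvd : Nat.card R ∣ Nat.card (fixIn G y0) := hcy ▸ Subgroup.card_dvd_of_le hR
      obtain ⟨j, hj⟩ := IsPGroup.iff_card.mp hRp
      have hScard : Nat.card (S : Subgroup (fixIn G y0)) = Nat.card P := by
        rw [← hSP, Subgroup.card_map_of_injective (Subgroup.subtype_injective _)]
      rw [← hScard, S.card_eq_multiplicity, hj]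
      rw [hj] at hdvd
      exact Nat.le_of_dvd (pow_pos hp.pos _) (Nat.pow_dvd_pow _
        ((Nat.Prime.pow_dvd_iff_le_factorization hp Nat.card_pos.ne').mp hdvd))
    rw [isMultiplyPretransitive_iff]
    intro x z
    let x' : Fin k ↪ α := x.trans (Function.Embedding.subtype _)
    let z' : Fin k ↪ α := z.trans (Function.Embedding.subtype _)
    obtain ⟨a, ha⟩ := exists_smul_eq G x' z'
    set y := Finset.univ.map z' with hy
    have hyc : y.card = k := by simp [hy]
    have hyF : y ⊆ F := fun c hc => by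
      obtain ⟨i, -, rfl⟩ := Finset.mem_map.mp hc
      exact (z i).2
    set H := fixIn G y with hH
    set P' := P.map (MulAut.conj (a : Perm α)).toMonoidHom with hP'
    have hP'H : P' ≤ H := by
      rintro _ ⟨v, hv, rfl⟩
      refine mem_fixIn.mpr ⟨mul_mem (mul_mem a.2 (hPG hv)) (inv_mem a.2), fun c hc => ?_⟩
      obtain ⟨i, -, rfl⟩ := Finset.mem_map.mp hc
      have hai : (a : Perm α) (x' i) = z' i := DFunLike.congr_fun ha i
      have hvx : v (x' i) = x' i := (mem_fixS P _).mp (x i).2 v hv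
      show ((a : Perm α) * v * (a : Perm α)⁻¹) (z' i) = z' i
      rw [Perm.mul_apply, Perm.mul_apply, Perm.coe_inv, ← hai, Equiv.symm_apply_apply, hvx]
    obtain ⟨S, hS⟩ := (hPp.comap_of_injective H.subtype (Subgroup.subtype_injective _)).exists_le_sylow
    obtain ⟨T, hT⟩ :=
      ((hPp.map (MulAut.conj (a : Perm α)).toMonoidHom).comap_of_injective H.subtype
        (Subgroup.subtype_injective _)).exists_le_sylow
    have eqS : (S : Subgroup H).map H.subtype = P := by
      refine (Subgroup.eq_of_le_of_card_ge (H := P) (K := (S : Subgroup H).map H.subtype) (fun v hv => ⟨⟨v, hPfix y hyF hv⟩, hS hv, rfl⟩) ?_).symm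
      exact hcardS y hyc _ (Subgroup.map_subtype_le _) (S.isPGroup'.map _)
    have eqT : (T : Subgroup H).map H.subtype = P' := by
      refine (Subgroup.eq_of_le_of_card_ge (H := P') (K := (T : Subgroup H).map H.subtype) (fun v hv => ⟨⟨v, hP'H hv⟩, hT hv, rfl⟩) ?_).symm
      rw [hP', Subgroup.card_map_of_injective (f := (MulAut.conj (a : Perm α)).toMonoidHom) (MulAut.conj (a : Perm α)).injective]
      exact hcardS y hyc _ (Subgroup.map_subtype_le _) (T.isPGroup'.map _)
    obtain ⟨h, hhT⟩ := exists_smul_eq H T S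
    have hmap : P.map (MulAut.conj ((h : Perm α) * a)).toMonoidHom = P := by
      conv_rhs => rw [← eqS, ← hhT, Sylow.coe_subgroup_smul]
      rw [map_mul]
      refine (Subgroup.map_map P (MulAut.conj (h : Perm α)).toMonoidHom (MulAut.conj (a : Perm α)).toMonoidHom).symm.trans ?_
      rw [← hP', ← eqT, Subgroup.map_map]
      exact (Subgroup.map_map (T : Subgroup H) H.subtype (MulAut.conj h).toMonoidHom).symm
    have hha : ((h : Perm α) * a) ∈ N := by
      refine ⟨mul_mem (mem_fixIn.mp h.2).1 a.2, Subgroup.mem_normalizer_iff.mpr fun v => ⟨fun hv => ?_, fun hv => ?_⟩⟩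
      · rw [← hmap]; exact ⟨v, hv, rfl⟩
      · rw [← hmap] at hv
        obtain ⟨w, hw, hwv⟩ := hv
        rwa [(MulAut.conj ((h : Perm α) * a)).injective hwv] at hw
    refine ⟨⟨ρ ⟨_, hha⟩, _, rfl⟩, Function.Embedding.ext fun i => Subtype.ext ?_⟩
    show (h : Perm α) ((a : Perm α) (x' i)) = z' i
    rw [show (a : Perm α) (x' i) = z' i from DFunLike.congr_fun ha i]
    exact (mem_fixIn.mp h.2).2 _ (Finset.mem_map_of_mem _ (Finset.mem_univ i))
  · -- Gleason
    push Not at hsyl
    refine S0743.result K hp (by omega) (by rw [Fintype.card_coe]; omega) fun s hs => ?_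
    set y := s.map (Function.Embedding.subtype _) with hy
    have hyF : y ⊆ F := fun c hc => by
      obtain ⟨a, -, rfl⟩ := Finset.mem_map.mp hc
      exact a.2
    obtain ⟨R, hR, hRp, hPR, hne⟩ := hsyl y hyF (by rw [hy, Finset.card_map, hs])
    -- the normalizer grows
    set Q := R ⊓ Subgroup.normalizer (P : Set (Perm α)) with hQ
    have hQp : IsPGroup p Q := hRp.to_le inf_le_left
    have hPQ : P < Q := by
      haveI := hRp.isNilpotent
      have hlt := Group.normalizerCondition_of_isNilpotent (P.subgroupOf R)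
        (lt_top_iff_ne_top.mpr fun e => hne (le_antisymm (Subgroup.subgroupOf_eq_top.mp e) hPR))
      refine lt_of_le_of_ne (le_inf hPR Subgroup.le_normalizer) fun e => ?_
      obtain ⟨v, hv, hv'⟩ := SetLike.exists_of_lt hlt
      refine hv' ?_
      rw [Subgroup.mem_subgroupOf, e]
      refine ⟨v.2, Subgroup.mem_normalizer_iff.mpr fun w => ⟨fun hw => ?_, fun hw => ?_⟩⟩
      · exact (Subgroup.mem_normalizer_iff.mp hv ⟨w, hPR hw⟩).mp hw
      · have hwR : w ∈ R := by
          have h1 := mul_mem (mul_mem (inv_mem v.2) (hPR hw)) v.2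
          simpa [mul_assoc] using h1
        exact (Subgroup.mem_normalizer_iff.mp hv ⟨w, hwR⟩).mpr hw
    have hQN : Q ≤ N := le_inf (inf_le_left.trans (hR.trans inf_le_left)) inf_le_right
    have hQsmall : (fixS Q).card ≤ k := by
      by_contra hbig
      exact hPQ.not_ge (hPmax.le_of_ge ⟨hQN.trans inf_le_left, hQp, by omega⟩ hPQ.le)
    have hfQ : fixS Q = y := by
      refine (Finset.eq_of_subset_of_card_le (fun c hc => ?_) (by rw [hy, Finset.card_map, hs]; exact hQsmall)).symm
      rw [mem_fixS]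
      exact fun u hu => (mem_fixIn.mp (hR hu.1)).2 c hc
    refine ⟨((Q.subgroupOf N).map ρ).subgroupOf K, ?_, ?_⟩
    · exact ((hQp.comap_of_injective N.subtype (Subgroup.subtype_injective _)).map ρ).comap_of_injective K.subtype
        (Subgroup.subtype_injective _)
    · ext x
      constructor
      · intro hx
        have hxy : (x : α) ∈ fixS Q := by
          rw [mem_fixS]
          intro u hu
          have h1 := hx ⟨⟨ρ ⟨u, hQN hu⟩, _, rfl⟩, ⟨⟨u, hQN hu⟩, hu, rfl⟩⟩
          exact congrArg Subtype.val h1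
        rw [hfQ, hy, Finset.mem_map] at hxy
        obtain ⟨a, ha, hax⟩ := hxy
        rw [Finset.mem_coe, ← show a = x from Subtype.ext hax]
        exact ha
      · intro hx ⟨⟨q, hqK⟩, u, hu, hqu⟩
        have hxy : (x : α) ∈ fixS Q := by rw [hfQ]; exact Finset.mem_map_of_mem _ hx
        refine Subtype.ext ?_
        show ((q x : F) : α) = x
        rw [show q = ρ u from hqu.symm, hρ]
        exact (mem_fixS Q _).mp hxy _ hu

end Cfsg.Agent.Lib.LWag
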