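import Cfsg.Agent.S0745
import Cfsg.Agent.S0736
import Cfsg.Agent.Lib.Coprime.Abelian

/-!
The Livingstone–Wagner theorem.
-/

set_option autoImplicit false

namespace Cfsg.Agent.Lib.LWag

open Equiv MulAction

variable {α : Type*} [Fintype α] [DecidableEq α] {G : Subgroup (Perm α)}

theorem pred_homog {k : ℕ} (hk : 2 ≤ k) (hkn : 2 * k ≤ Fintype.card α)
    (h : IsPretransitive G (Set.powersetCard α k)) : IsPretransitive G (Set.powersetCard α (k - 1)) :=
  S0736.result G hk h fun q _ hq => by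
    have := Nat.le_of_dvd (by omega) hq
    omega

/-- A `k`-homogeneous group of degree at least `2k` is `(k-1)`-transitive. -/
theorem pred_trans : ∀ {k : ℕ}, 2 ≤ k → 2 * k ≤ Fintype.card α → IsPretransitive G (Set.powersetCard α k) →
    IsMultiplyPretransitive G α (k - 1) := by
  intro k
  induction k using Nat.strong_induction_on with
  | _ k ih =>
  intro hk hkn hh
  have h1 := pred_homog hk hkn hh
  obtain rfl | hk3 := eq_or_lt_of_le hk
  · rw [show 2 - 1 = 1 from rfl] at h1 ⊢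
    rw [is_one_pretransitive_iff]
    refine ⟨fun a b => ?_⟩
    obtain ⟨g, hg, hgi⟩ := exists_image h1 {a} {b} (Finset.card_singleton a) (Finset.card_singleton b)
    exact ⟨⟨g, hg⟩, by simpa [Subgroup.smul_def] using hgi⟩
  by_contra hnt
  have hk' := ih (k - 1) (by omega) (by omega) (by omega) h1
  rw [show k - 1 - 1 = k - 2 by omega] at hk'
  rcases S0745.result G (by omega : 3 ≤ k) (by omega) hk' hnt h1 hh with ⟨h, -⟩ | ⟨h, h', -⟩ | ⟨h, h', -⟩ |
    ⟨h, h', -⟩ <;> omega

/-- Two commuting double transpositions on four letters. -/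
theorem double_swap_apply {a b c d : α} (hab : a ≠ b) (hac : a ≠ c) (had : a ≠ d) (hbc : b ≠ c) (hbd : b ≠ d)
    (hcd : c ≠ d) (e : α) :
    (e = a → (Equiv.swap a b * Equiv.swap c d) e = b ∧ (Equiv.swap a c * Equiv.swap b d) e = c) ∧
      (e = b → (Equiv.swap a b * Equiv.swap c d) e = a ∧ (Equiv.swap a c * Equiv.swap b d) e = d) ∧
      (e = c → (Equiv.swap a b * Equiv.swap c d) e = d ∧ (Equiv.swap a c * Equiv.swap b d) e = a) ∧
      (e = d → (Equiv.swap a b * Equiv.swap c d) e = c ∧ (Equiv.swap a c * Equiv.swap b d) e = b) ∧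
      (e ≠ a → e ≠ b → e ≠ c → e ≠ d →
        (Equiv.swap a b * Equiv.swap c d) e = e ∧ (Equiv.swap a c * Equiv.swap b d) e = e) := by
  simp only [Perm.mul_apply]
  refine ⟨?_, ?_, ?_, ?_, ?_⟩
  · rintro rfl
    rw [swap_apply_of_ne_of_ne hac had, swap_apply_left, swap_apply_of_ne_of_ne hab had, swap_apply_left]
    exact ⟨rfl, rfl⟩
  · rintro rfl
    rw [swap_apply_of_ne_of_ne hbc hbd, swap_apply_right, swap_apply_left,
      swap_apply_of_ne_of_ne had.symm hcd.symm]
    exact ⟨rfl, rfl⟩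
  · rintro rfl
    rw [swap_apply_left, swap_apply_of_ne_of_ne had.symm hbd.symm, swap_apply_of_ne_of_ne hbc.symm hcd,
      swap_apply_right]
    exact ⟨rfl, rfl⟩
  · rintro rfl
    rw [swap_apply_right, swap_apply_of_ne_of_ne hac.symm hbc.symm, swap_apply_right,
      swap_apply_of_ne_of_ne hab.symm hbc]
    exact ⟨rfl, rfl⟩
  · intro h1 h2 h3 h4
    rw [swap_apply_of_ne_of_ne h3 h4, swap_apply_of_ne_of_ne h1 h2, swap_apply_of_ne_of_ne h2 h4,
      swap_apply_of_ne_of_ne h1 h3]
    exact ⟨rfl, rfl⟩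

/-- The two double transpositions are commuting involutions. -/
theorem double_swap_rel {a b c d : α} (hab : a ≠ b) (hac : a ≠ c) (had : a ≠ d) (hbc : b ≠ c) (hbd : b ≠ d)
    (hcd : c ≠ d) (e : α) :
    (Equiv.swap a b * Equiv.swap c d) ((Equiv.swap a b * Equiv.swap c d) e) = e ∧
      (Equiv.swap a c * Equiv.swap b d) ((Equiv.swap a c * Equiv.swap b d) e) = e ∧
      (Equiv.swap a b * Equiv.swap c d) ((Equiv.swap a c * Equiv.swap b d) e) =
        (Equiv.swap a c * Equiv.swap b d) ((Equiv.swap a b * Equiv.swap c d) e) := by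
  have F := double_swap_apply hab hac had hbc hbd hcd
  obtain ⟨a1, a2⟩ := (F a).1 rfl
  obtain ⟨b1, b2⟩ := (F b).2.1 rfl
  obtain ⟨c1, c2⟩ := (F c).2.2.1 rfl
  obtain ⟨d1, d2⟩ := (F d).2.2.2.1 rfl
  by_cases h1 : e = a
  · rw [h1]; simp only [a1, a2, b1, b2, c1, c2, and_self]
  by_cases h2 : e = b
  · rw [h2]; simp only [a1, a2, b1, b2, d1, d2, and_self]
  by_cases h3 : e = c
  · rw [h3]; simp only [a1, a2, c1, c2, d1, d2, and_self]
  by_cases h4 : e = d
  · rw [h4]; simp only [b1, b2, c1, c2, d1, d2, and_self]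
  obtain ⟨o1, o2⟩ := (F e).2.2.2.2 h1 h2 h3 h4
  simp only [o1, o2, and_self]

set_option maxHeartbeats 1000000 in
/-- A `k`-homogeneous group, `5 ≤ k`, of degree at least `2k` is `k`-transitive. -/
theorem full_trans {k : ℕ} (hk : 5 ≤ k) (hkn : 2 * k ≤ Fintype.card α)
    (hh : IsPretransitive G (Set.powersetCard α k)) : IsMultiplyPretransitive G α k := by
  classical
  by_contra hnt
  set n := Fintype.card α with hn
  have hG := pred_trans (by omega) hkn hh
  -- no odd permutation is induced on a `k`-set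
  obtain ⟨Δ, hΔ, hΔa⟩ := exists_alt_set n G hn.symm (by omega : 4 ≤ k - 1) (by omega) hG
  rw [show k - 1 + 1 = k by omega] at hΔ
  have noswap : ∀ K : Finset α, K.card = k → ∀ a ∈ K, ∀ b ∈ K, a ≠ b → ∀ g ∈ G, g a = b → g b = a →
      (∀ c ∈ K, c ≠ a → c ≠ b → g c = c) → False := by
    intro K hK a ha b hb hab g hg hga hgb hgc
    refine hnt (trans_of_full hΔ ?_ fun t ht => exists_image hh Δ t hΔ ht)
    obtain ⟨u, hu, huK⟩ := exists_image hh Δ K hΔ hK
    obtain ⟨a', ha', rfl⟩ := Finset.mem_image.mp (huK ▸ ha)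
    obtain ⟨b', hb', rfl⟩ := Finset.mem_image.mp (huK ▸ hb)
    have hab' : (⟨a', ha'⟩ : Δ) ≠ ⟨b', hb'⟩ := fun e => hab (congrArg (fun q : Δ => u q) e)
    intro σ
    rcases Int.units_eq_one_or (Perm.sign σ) with h | h
    · exact hΔa σ (Perm.mem_alternatingGroup.mpr h)
    obtain ⟨v, hv, hvσ⟩ := hΔa (Equiv.swap ⟨a', ha'⟩ ⟨b', hb'⟩ * σ) (Perm.mem_alternatingGroup.mpr (by
      rw [map_mul, Perm.sign_swap hab', h]; simp))
    refine ⟨(u⁻¹ * g * u) * v, mul_mem (mul_mem (mul_mem (inv_mem hu) hg) hu) hv, fun x => ?_⟩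
    show (u⁻¹ * g * u) (v x) = _
    rw [hvσ]
    simp only [Perm.mul_apply, Perm.coe_inv, Equiv.symm_apply_eq]
    set y := σ x with hy
    by_cases h1 : y = ⟨a', ha'⟩
    · rw [h1, Equiv.swap_apply_left]; exact hgb
    by_cases h2 : y = ⟨b', hb'⟩
    · rw [h2, Equiv.swap_apply_right]; exact hga
    rw [Equiv.swap_apply_of_ne_of_ne h1 h2]
    exact hgc _ (huK ▸ Finset.mem_image_of_mem _ y.2) (fun e => h1 (Subtype.ext (u.injective e)))
      (fun e => h2 (Subtype.ext (u.injective e)))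
  obtain ⟨s, -, hs⟩ := Finset.exists_subset_card_eq (s := (Finset.univ : Finset α)) (n := k - 1)
    (by rw [Finset.card_univ]; omega)
  set H := fixIn G s with hH
  -- an involution fixing `k - 2` points is impossible
  have few : ∀ z ∈ G, z * z = 1 → z ≠ 1 → (fixSet z).card + 3 ≤ k := by
    intro z hz hzz hz1
    by_contra hbig
    obtain ⟨a, ha⟩ : ∃ a, z a ≠ a := by
      by_contra h
      push Not at h
      exact hz1 (Equiv.ext h)
    obtain ⟨T, hT, hTc⟩ := Finset.exists_subset_card_eq (s := fixSet z) (n := k - 2) (by omega)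
    have hza : z (z a) = a := by rw [← Perm.mul_apply, hzz, Perm.one_apply]
    have haT : a ∉ T := fun h => ha (mem_fixSet.mp (hT h))
    have hbT : z a ∉ T := fun h => ha (z.injective (mem_fixSet.mp (hT h)))
    refine noswap (insert a (insert (z a) T)) ?_ a (by simp) (z a) (by simp) (Ne.symm ha) z hz rfl hza ?_
    · rw [Finset.card_insert_of_notMem (by simp [haT, Ne.symm ha]), Finset.card_insert_of_notMem hbT, hTc]
      omega
    · intro c hc hca hcb
      simp only [Finset.mem_insert] at hc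
      exact mem_fixSet.mp (hT ((hc.resolve_left hca).resolve_left hcb))
  have hodd : Odd (Nat.card H) := by
    rw [← Nat.not_even_iff_odd]
    intro hev
    obtain ⟨i, hi⟩ := exists_prime_orderOf_dvd_card' (G := H) 2 (even_iff_two_dvd.mp hev)
    have hii : (i : Perm α) * i = 1 := by
      have := congrArg Subtype.val (pow_orderOf_eq_one i)
      rw [hi] at this
      simpa [pow_two] using this
    have hi1 : (i : Perm α) ≠ 1 := fun e => by
      rw [show i = 1 from Subtype.ext e, orderOf_one] at hi; norm_num at hi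
    have h1 := few _ (mem_fixIn.mp i.2).1 hii hi1
    have h2 : s.card ≤ (fixSet (i : Perm α)).card :=
      Finset.card_le_card fun c hc => mem_fixSet.mpr ((mem_fixIn.mp i.2).2 c hc)
    omega
  -- orbits of the stabilizer outside `s`
  let O : α → Finset α := fun x => Finset.univ.filter fun y => ∃ g ∈ H, g x = y
  have memO : ∀ x y, y ∈ O x ↔ ∃ g ∈ H, g x = y := fun x y => by simp [O]
  have hOs : ∀ x, x ∉ s → ∀ y ∈ O x, y ∉ s := fun x hx y hy hm => by
    obtain ⟨g, hg, rfl⟩ := (memO x y).mp hy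
    exact hx (g.injective ((mem_fixIn.mp hg).2 _ hm) ▸ hm)
  have hins : ∀ x, x ∉ s → (insert x s).card = k := fun x hx => by
    rw [Finset.card_insert_of_notMem hx, hs]; omega
  have key : ∀ x, x ∉ s → ∃ g ∈ G, (insert x s).image g = Δ := fun x hx =>
    exists_image hh _ _ (hins x hx) hΔ
  have conn : ∀ x y, x ∉ s → y ∉ s → ∀ g ∈ G, g x = y → (∀ c ∈ s, g c ∈ s) →
      (∀ σ : Perm ↥s, (∀ c : ↥s, g (c : α) = σ c) → Perm.sign σ = 1) → y ∈ O x := by
    intro x y hx hy g hg hgx hgs hsgn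
    let σ : Perm ↥s := Equiv.ofBijective (fun c => ⟨g c, hgs c c.2⟩)
      (Finite.injective_iff_bijective.mp fun c d h => Subtype.ext (g.injective (congrArg Subtype.val h)))
    have hσ := hsgn σ (fun c => rfl)
    -- realise the inverse fixing `x`
    obtain ⟨u, hu, huΔ⟩ := key x hx
    have hmem : ∀ c : ↥(insert x s), u c ∈ Δ := fun c => huΔ ▸ Finset.mem_image_of_mem _ c.2
    let e : ↥(insert x s) ≃ ↥Δ := Equiv.ofBijective (fun c => ⟨u c, hmem c⟩)
      ((Fintype.bijective_iff_injective_and_card _).mpr ⟨fun c d h =>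
        Subtype.ext (u.injective (congrArg Subtype.val h)), by
          rw [Fintype.card_coe, Fintype.card_coe, hins x hx, hΔ]⟩)
    let ι : ↥s ↪ ↥(insert x s) := ⟨fun c => ⟨c, Finset.mem_insert_of_mem c.2⟩,
      fun c d h => by have := congrArg Subtype.val h; exact Subtype.ext this⟩
    obtain ⟨v, hv, hvσ⟩ := hΔa (e.permCongr (Perm.viaFintypeEmbedding σ⁻¹ ι)) (by
      rw [Perm.mem_alternatingGroup, Perm.sign_permCongr, Perm.viaFintypeEmbedding_sign, map_inv, hσ, inv_one])
    have hcomp : ∀ c : ↥(insert x s), (u⁻¹ * v * u) (c : α) = (Perm.viaFintypeEmbedding σ⁻¹ ι c : α) := by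
      intro c
      have h1 := hvσ (e c)
      rw [Equiv.permCongr_apply, Equiv.symm_apply_apply] at h1
      rw [Perm.mul_apply, Perm.mul_apply, Perm.coe_inv, Equiv.symm_apply_eq]
      exact h1
    refine (memO x y).mpr ⟨g * (u⁻¹ * v * u), mem_fixIn.mpr
      ⟨mul_mem hg (mul_mem (mul_mem (inv_mem hu) hv) hu), fun c hc => ?_⟩, ?_⟩
    · rw [Perm.mul_apply, hcomp ⟨c, Finset.mem_insert_of_mem hc⟩]
      rw [show (⟨c, Finset.mem_insert_of_mem hc⟩ : ↥(insert x s)) = ι ⟨c, hc⟩ from rfl,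
        Perm.viaFintypeEmbedding_apply_image]
      show g ((σ⁻¹ ⟨c, hc⟩ : ↥s) : α) = c
      exact congrArg Subtype.val (σ.apply_symm_apply ⟨c, hc⟩)
    · rw [Perm.mul_apply, hcomp ⟨x, Finset.mem_insert_self x s⟩, Perm.viaFintypeEmbedding_apply_notMem_range]
      · exact hgx
      · rintro ⟨c, hc⟩
        exact hx ((show (c : α) = x from congrArg Subtype.val hc) ▸ c.2)
  have hOcard : ∀ x, Odd (O x).card := by
    intro x
    have e : (O x).card = Nat.card (orbit H x) := by
      rw [← Fintype.card_coe, ← Nat.card_eq_fintype_card]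
      refine Nat.card_congr (Equiv.subtypeEquivRight fun y => ?_)
      rw [memO]
      exact ⟨fun ⟨g, hg, h⟩ => ⟨⟨g, hg⟩, h⟩, fun ⟨g, h⟩ => ⟨g, g.2, h⟩⟩
    rw [e]
    refine hodd.of_dvd_nat ?_
    rw [Nat.card_congr (orbitEquivQuotientStabilizer H x)]
    exact Subgroup.index_dvd_card _
  -- three commuting involutions inducing double transpositions
  obtain ⟨a, ha, b, hb, c, hc, d, hd, hab, hac, had, hbc, hbd, hcd⟩ :
      ∃ a ∈ s, ∃ b ∈ s, ∃ c ∈ s, ∃ d ∈ s, a ≠ b ∧ a ≠ c ∧ a ≠ d ∧ b ≠ c ∧ b ≠ d ∧ c ≠ d := by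
    obtain ⟨a, ha⟩ := Finset.card_pos.mp (show 0 < s.card by omega)
    obtain ⟨b, hb⟩ := Finset.card_pos.mp (show 0 < (s.erase a).card by
      rw [Finset.card_erase_of_mem ha]; omega)
    obtain ⟨c, hc⟩ := Finset.card_pos.mp (show 0 < ((s.erase a).erase b).card by
      rw [Finset.card_erase_of_mem hb, Finset.card_erase_of_mem ha]; omega)
    obtain ⟨d, hd⟩ := Finset.card_pos.mp (show 0 < (((s.erase a).erase b).erase c).card by
      rw [Finset.card_erase_of_mem hc, Finset.card_erase_of_mem hb, Finset.card_erase_of_mem ha]; omega)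
    simp only [Finset.mem_erase] at hb hc hd
    exact ⟨a, ha, b, hb.2, c, hc.2.2, d, hd.2.2.2, Ne.symm hb.1, Ne.symm hc.2.1, Ne.symm hd.2.2.1, Ne.symm hc.1,
      Ne.symm hd.2.1, Ne.symm hd.1⟩
  have swap_mem : ∀ p ∈ s, ∀ q ∈ s, ∀ e ∈ s, Equiv.swap p q e ∈ s := fun p hp q hq e he => by
    rw [Equiv.swap_apply_def]; split_ifs <;> assumption
  set π1 := Equiv.swap a b * Equiv.swap c d with hπ1
  set π2 := Equiv.swap a c * Equiv.swap b d with hπ2
  have hπ1s : ∀ e ∈ s, π1 e ∈ s := fun e he => swap_mem a ha b hb _ (swap_mem c hc d hd e he)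
  have hπ2s : ∀ e ∈ s, π2 e ∈ s := fun e he => swap_mem a ha c hc _ (swap_mem b hb d hd e he)
  have evalπ := fun e => double_swap_apply hab hac had hbc hbd hcd e
  have hrel := fun e => double_swap_rel hab hac had hbc hbd hcd e
  obtain ⟨g1, hg1, hg1s⟩ := exists_extend hG (by omega) s (by omega) π1 π1.injective.injOn
  obtain ⟨g2, hg2, hg2s⟩ := exists_extend hG (by omega) s (by omega) π2 π2.injective.injOn
  obtain ⟨v1, hv1, hv11, hv1s⟩ := exists_involution_lift hg1 s (fun e he => by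
    rw [hg1s e he, hg1s _ (hπ1s e he), (hrel e).1]) hodd
  replace hv1s : ∀ e ∈ s, v1 e = π1 e := fun e he => (hv1s e he).trans (hg1s e he)
  -- an involution over the second pattern commuting with the first
  obtain ⟨v2, hv2, hv22, hv2s, hv12⟩ : ∃ v2 ∈ G, v2 * v2 = 1 ∧ (∀ e ∈ s, v2 e = π2 e) ∧ v1 * v2 = v2 * v1 := by
    obtain ⟨w, hw, hww, hws⟩ := exists_involution_lift hg2 s (fun e he => by
      rw [hg2s e he, hg2s _ (hπ2s e he), (hrel e).2.1]) hodd
    replace hws : ∀ e ∈ s, w e = π2 e := fun e he => (hws e he).trans (hg2s e he)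
    set r := (v1 * w) * (v1 * w) with hr
    have hrH : r ∈ H := by
      refine mem_fixIn.mpr ⟨mul_mem (mul_mem hv1 hw) (mul_mem hv1 hw), fun e he => ?_⟩
      simp only [hr, Perm.mul_apply]
      rw [hws e he, hv1s _ (hπ2s e he), hws _ (hπ1s _ (hπ2s e he)), hv1s _ (hπ2s _ (hπ1s _ (hπ2s e he))),
        (hrel e).2.2, (hrel (π1 e)).2.1, (hrel e).1]
    obtain ⟨j, hj⟩ := hodd
    have hrN : r ^ (2 * j + 1) = 1 := by
      rw [← hj]; exact congrArg Subtype.val (pow_card_eq_one' (x := (⟨r, hrH⟩ : H)))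
    have hinv : w * r * w = r⁻¹ := by
      rw [eq_inv_iff_mul_eq_one, hr]
      calc w * (v1 * w * (v1 * w)) * w * (v1 * w * (v1 * w))
          = w * v1 * w * v1 * (w * w) * v1 * w * v1 * w := by group
        _ = w * v1 * w * (v1 * v1) * w * v1 * w := by rw [hww, mul_one]; group
        _ = w * v1 * (w * w) * v1 * w := by rw [hv11, mul_one]; group
        _ = 1 := by rw [hww, mul_one, mul_assoc w, hv11, mul_one, hww]
    -- conjugate `w` by a square root
    set q := r ^ (j + 1) with hq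
    have hqq : q * q = r := by
      rw [hq, ← pow_add, show j + 1 + (j + 1) = 2 * j + 1 + 1 by omega, pow_succ, hrN, one_mul]
    have hqH : q ∈ H := pow_mem hrH _
    have hwq : w * q * w = q⁻¹ := by
      have hc2 : ∀ i : ℕ, w * r ^ i * w = (r⁻¹) ^ i := fun i => by
        rw [← hinv]
        conv_rhs => rw [show w * r * w = w * r * w⁻¹ by rw [inv_eq_of_mul_eq_one_right hww], conj_pow,
          inv_eq_of_mul_eq_one_right hww]
      rw [hq, hc2, inv_pow]
    refine ⟨w * q⁻¹, mul_mem hw (inv_mem (mem_fixIn.mp hqH).1), ?_, fun e he => ?_, ?_⟩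
    · rw [← hwq]
      calc w * (w * q * w) * (w * (w * q * w)) = (w * w) * q * (w * w) * (w * q * w) := by group
        _ = 1 := by rw [hww, one_mul, mul_one, hwq, mul_inv_cancel]
    · rw [Perm.mul_apply, (mem_fixIn.mp (inv_mem hqH)).2 e he, hws e he]
    · -- the product with `v1` squares to one
      set x := v1 * w with hx
      have hcom : Commute x q := by
        rw [hq]
        exact (show Commute x r from hr ▸ (Commute.refl x).mul_right (Commute.refl x)).pow_right _
      have h1 : (v1 * (w * q⁻¹)) * (v1 * (w * q⁻¹)) = 1 := by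
        rw [show v1 * (w * q⁻¹) = x * q⁻¹ by rw [hx]; group, (hcom.inv_right.symm).mul_mul_mul_comm,
          show x * x = r from rfl, ← mul_inv_rev, hqq, mul_inv_cancel]
      have h2 : (w * q⁻¹) * (w * q⁻¹) = 1 := by
        rw [← hwq]
        calc w * (w * q * w) * (w * (w * q * w)) = (w * w) * q * (w * w) * (w * q * w) := by group
          _ = 1 := by rw [hww, one_mul, mul_one, hwq, mul_inv_cancel]
      have h3 := inv_eq_of_mul_eq_one_right h1
      rw [mul_inv_rev, inv_eq_of_mul_eq_one_right h2, inv_eq_of_mul_eq_one_right hv11] at h3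
      exact h3.symm
  have hfixV : ∀ v ∈ G, v * v = 1 → v ≠ 1 → (∀ e ∈ s, v e ∈ s) →
      (∀ e ∈ s, e ≠ a → e ≠ b → e ≠ c → e ≠ d → v e = e) →
      ((fixSet v).filter fun e => e ∉ s).card ≤ 2 := by
    intro v hv hvv hv1' _ hvr
    have h1 := few v hv hvv hv1'
    have hsub : (((s.erase a).erase b).erase c).erase d ⊆ (fixSet v).filter fun e => e ∈ s := fun e he => by
      simp only [Finset.mem_erase] at he
      exact Finset.mem_filter.mpr ⟨mem_fixSet.mpr (hvr e he.2.2.2.2 he.2.2.2.1 he.2.2.1 he.2.1 he.1), he.2.2.2.2⟩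
    have h2 := Finset.card_le_card hsub
    rw [Finset.card_erase_of_mem (by simp [hd, Ne.symm had, Ne.symm hbd, Ne.symm hcd]),
      Finset.card_erase_of_mem (by simp [hc, Ne.symm hac, Ne.symm hbc]),
      Finset.card_erase_of_mem (by simp [hb, Ne.symm hab]), Finset.card_erase_of_mem ha, hs] at h2
    have h3 := Finset.card_filter_add_card_filter_not (s := fixSet v) (fun e => e ∈ s)
    omega
  obtain ⟨Ea1, Ea2⟩ := (evalπ a).1 rfl
  obtain ⟨v3, hv3def⟩ : ∃ v, v = v1 * v2 := ⟨_, rfl⟩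
  have hv33 : v3 * v3 = 1 := by
    rw [hv3def, show v1 * v2 * (v1 * v2) = v1 * (v2 * v1) * v2 by group, ← hv12, ← mul_assoc, hv11, one_mul,
      hv22]
  have hv3s : ∀ e ∈ s, v3 e = π1 (π2 e) := fun e he => by
    rw [hv3def, Perm.mul_apply, hv2s e he, hv1s _ (hπ2s e he)]
  -- a second orbit
  have second : ∀ x, x ∉ s → ∃ y, y ∉ s ∧ y ∉ O x := by
    intro x hx
    by_contra hcon
    push Not at hcon
    refine hnt ?_
    have := trans_succ hG (by omega) s hs fun p hp q hq => by
      obtain ⟨g, hg, rfl⟩ := (memO x p).mp (hcon p hp)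
      obtain ⟨g', hg', rfl⟩ := (memO x q).mp (hcon q hq)
      exact ⟨g' * g⁻¹, mul_mem hg' (inv_mem hg), by rw [Perm.mul_apply, Perm.coe_inv, Equiv.symm_apply_apply]⟩
    rwa [show k - 1 + 1 = k by omega] at this
  have hdisj : ∀ x y, y ∉ O x → ∀ w, w ∈ O x → w ∈ O y → False := by
    intro x y hy w hwx hwy
    obtain ⟨g, hg, hgw⟩ := (memO x w).mp hwx
    obtain ⟨g', hg', hgw'⟩ := (memO y w).mp hwy
    exact hy ((memO x y).mpr ⟨g'⁻¹ * g, mul_mem (inv_mem hg') hg, by
      rw [Perm.mul_apply, hgw, ← hgw', Perm.coe_inv, Equiv.symm_apply_apply]⟩)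
  -- the three involutions
  let IsV : Perm α → Prop := fun v => v ∈ G ∧ v * v = 1 ∧ v ≠ 1 ∧ (∀ e ∈ s, v e ∈ s) ∧
    (∀ e ∈ s, e ≠ a → e ≠ b → e ≠ c → e ≠ d → v e = e) ∧
    ∀ σ : Perm ↥s, (∀ e : ↥s, v (e : α) = σ e) → Perm.sign σ = 1
  have invo : ∀ v : Perm α, v * v = 1 → ∀ e, v (v e) = e := fun v h e => by
    rw [← Perm.mul_apply, h, Perm.one_apply]
  have hmapO : ∀ v, IsV v → ∀ x, x ∉ s → ∀ y ∈ O x, v y ∈ O x := by
    rintro v ⟨hv, hvv, -, hvs, -, hsgn⟩ x hx y hy
    have hys := hOs x hx y hy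
    have hvy : v y ∉ s := fun hm => hys (by have := hvs _ hm; rwa [invo v hvv] at this)
    obtain ⟨g, hg, rfl⟩ := (memO x y).mp hy
    obtain ⟨g', hg', hgv⟩ := (memO _ _).mp (conn (g x) (v (g x)) hys hvy v hv rfl hvs hsgn)
    exact (memO x _).mpr ⟨g' * g, mul_mem hg' hg, hgv⟩
  have one_fix : ∀ v, IsV v → ∀ x, x ∉ s → ∃ y, ∀ w, (w ∈ O x ∧ v w = w) ↔ w = y := by
    intro v hV x hx
    obtain ⟨y, hy, hyx⟩ := second x hx
    have oddfix : ∀ z, z ∉ s → Odd ((O z).filter fun w => v w = w).card := by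
      intro z hz
      have hmem : ∀ w, (v w ∈ O z) ↔ w ∈ O z := fun w => ⟨fun h => by
        have := hmapO v hV z hz _ h; rwa [invo v hV.2.1] at this, hmapO v hV z hz w⟩
      set τ : Perm ↥(O z) := v.subtypePerm hmem with hτ
      haveI : Fact (Nat.Prime 2) := ⟨Nat.prime_two⟩
      have hmod := fixSet_modEq (p := 2) (j := 1) (g := τ)
        (Equiv.ext fun w => Subtype.ext (by simp [pow_two, hτ, invo v hV.2.1]))
      have hcard : (fixSet τ).card = ((O z).filter fun w => v w = w).card := by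
        rw [← Finset.card_map (Function.Embedding.subtype _)]
        congr 1
        ext w
        simp [mem_fixSet, hτ, Subtype.ext_iff, and_comm]
      rw [hcard, Fintype.card_coe] at hmod
      have := Nat.odd_iff.mp (hOcard z)
      unfold Nat.ModEq at hmod
      rw [Nat.odd_iff]
      omega
    have hle := hfixV v hV.1 hV.2.1 hV.2.2.1 hV.2.2.2.1 hV.2.2.2.2.1
    have hsum : ((O x).filter fun w => v w = w).card + ((O y).filter fun w => v w = w).card ≤
        ((fixSet v).filter fun e => e ∉ s).card := by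
      rw [← Finset.card_union_of_disjoint (Finset.disjoint_left.mpr fun w h1 h2 =>
        hdisj x y hyx w (Finset.mem_filter.mp h1).1 (Finset.mem_filter.mp h2).1)]
      refine Finset.card_le_card fun w hw => ?_
      simp only [Finset.mem_union, Finset.mem_filter] at hw
      rcases hw with ⟨h1, h2⟩ | ⟨h1, h2⟩
      · exact Finset.mem_filter.mpr ⟨mem_fixSet.mpr h2, hOs x hx w h1⟩
      · exact Finset.mem_filter.mpr ⟨mem_fixSet.mpr h2, hOs y hy w h1⟩
    have o1 := (oddfix x hx).pos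
    have o2 := (oddfix y hy).pos
    obtain ⟨u, hu⟩ := Finset.card_eq_one.mp (show ((O x).filter fun w => v w = w).card = 1 by omega)
    refine ⟨u, fun w => ?_⟩
    have hw : w ∈ (O x).filter (fun w => v w = w) ↔ w = u := by rw [hu]; exact Finset.mem_singleton
    rw [Finset.mem_filter] at hw
    exact hw
  have signπ : ∀ v : Perm α, (∀ e ∈ s, v e ∈ s) → ∀ π : Perm α, Perm.sign π = 1 →
      (∀ e, e ∉ s → π e = e) → (∀ e ∈ s, v e = π e) →
      ∀ σ : Perm ↥s, (∀ e : ↥s, v (e : α) = σ e) → Perm.sign σ = 1 := by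
    intro v _ π hπ hout hin σ hσ
    rw [← Perm.sign_ofSubtype σ]
    convert hπ using 2
    ext e
    by_cases he : e ∈ s
    · rw [Perm.ofSubtype_apply_of_mem σ he, ← hσ ⟨e, he⟩]; exact hin e he
    · rw [Perm.ofSubtype_apply_of_not_mem σ he, hout e he]
  have hout : ∀ e, e ∉ s → π1 e = e ∧ π2 e = e := fun e he => (evalπ e).2.2.2.2
    (fun h => he (h ▸ ha)) (fun h => he (h ▸ hb)) (fun h => he (h ▸ hc)) (fun h => he (h ▸ hd))
  have hsign1 : Perm.sign π1 = 1 := by rw [hπ1, map_mul, Perm.sign_swap hab, Perm.sign_swap hcd]; simp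
  have hsign2 : Perm.sign π2 = 1 := by rw [hπ2, map_mul, Perm.sign_swap hac, Perm.sign_swap hbd]; simp
  have hd2 := ((evalπ c).2.2.1 rfl).1
  have ne1 : v1 ≠ 1 := fun h => hab (by
    have := hv1s a ha; rw [h, Perm.one_apply, Ea1] at this; exact this)
  have ne2 : v2 ≠ 1 := fun h => hac (by
    have := hv2s a ha; rw [h, Perm.one_apply, Ea2] at this; exact this)
  have ne3 : v3 ≠ 1 := fun h => had (by
    have := hv3s a ha; rw [h, Perm.one_apply, Ea2, hd2] at this; exact this)
  have ne12 : v1 ≠ v2 := fun h => hbc (by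
    have h1 := hv1s a ha; rw [h, hv2s a ha, Ea1, Ea2] at h1; exact h1.symm)
  have V1 : IsV v1 := ⟨hv1, hv11, ne1, fun e he => by rw [hv1s e he]; exact hπ1s e he,
    fun e he h1 h2 h3 h4 => by rw [hv1s e he]; exact ((evalπ e).2.2.2.2 h1 h2 h3 h4).1,
    signπ v1 (fun e he => by rw [hv1s e he]; exact hπ1s e he) π1 hsign1 (fun e he => (hout e he).1) hv1s⟩
  have V2 : IsV v2 := ⟨hv2, hv22, ne2, fun e he => by rw [hv2s e he]; exact hπ2s e he,
    fun e he h1 h2 h3 h4 => by rw [hv2s e he]; exact ((evalπ e).2.2.2.2 h1 h2 h3 h4).2,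
    signπ v2 (fun e he => by rw [hv2s e he]; exact hπ2s e he) π2 hsign2 (fun e he => (hout e he).2) hv2s⟩
  have V3 : IsV v3 := ⟨hv3def.symm ▸ mul_mem hv1 hv2, hv33, ne3, fun e he => by rw [hv3s e he]; exact hπ1s _ (hπ2s e he),
    fun e he h1 h2 h3 h4 => by
      obtain ⟨o1, o2⟩ := (evalπ e).2.2.2.2 h1 h2 h3 h4
      rw [hv3s e he, o2, o1],
    signπ v3 (fun e he => by rw [hv3s e he]; exact hπ1s _ (hπ2s e he)) (π1 * π2)
      (by rw [map_mul, hsign1, hsign2, one_mul])
      (fun e he => by rw [Perm.mul_apply, (hout e he).2, (hout e he).1])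
      (fun e he => by rw [Perm.mul_apply]; exact hv3s e he)⟩
  -- every orbit is a single point
  have single : ∀ x, x ∉ s → ∀ g ∈ H, g x = x := by
    intro x hx
    obtain ⟨y, hy⟩ := one_fix v1 V1 x hx
    obtain ⟨hyO, hy1⟩ := (hy y).mpr rfl
    have hy2 : v2 y = y := (hy (v2 y)).mp ⟨hmapO v2 V2 x hx y hyO, by
      rw [← Perm.mul_apply, hv12, Perm.mul_apply, hy1]⟩
    have hy3 : v3 y = y := by rw [hv3def, Perm.mul_apply, hy2, hy1]
    let B : Subgroup (Perm α) := Subgroup.zpowers v1 ⊔ Subgroup.zpowers v2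
    have hBmem : ∀ v ∈ B, v = 1 ∨ v = v1 ∨ v = v2 ∨ v = v3 := by
      have e21 : v2 * v1 = v3 := hv12.symm.trans hv3def.symm
      have e13 : v1 * v3 = v2 := by rw [hv3def, ← mul_assoc, hv11, one_mul]
      have e23 : v2 * v3 = v1 := by rw [← e21, ← mul_assoc, hv22, one_mul]
      have e31 : v3 * v1 = v2 := by rw [← e21, mul_assoc, hv11, mul_one]
      have e32 : v3 * v2 = v1 := by rw [hv3def, mul_assoc, hv22, mul_one]
      have i1 := inv_eq_of_mul_eq_one_right hv11
      have i2 := inv_eq_of_mul_eq_one_right hv22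
      have i3 := inv_eq_of_mul_eq_one_right hv33
      let K : Subgroup (Perm α) :=
        { carrier := {v | v = 1 ∨ v = v1 ∨ v = v2 ∨ v = v3}
          one_mem' := Or.inl rfl
          mul_mem' := by
            rintro p q (rfl | rfl | rfl | rfl) (rfl | rfl | rfl | rfl) <;>
              simp [hv11, hv22, hv33, e21, e13, e23, e31, e32, ← hv3def]
          inv_mem' := by
            rintro p (rfl | rfl | rfl | rfl) <;> simp [i1, i2, i3] }
      have hle : B ≤ K := sup_le (Subgroup.zpowers_le.mpr (Or.inr (Or.inl rfl)))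
        (Subgroup.zpowers_le.mpr (Or.inr (Or.inr (Or.inl rfl))))
      exact fun v hv => hle hv
    have m1 : v1 ∈ B := Subgroup.mem_sup_left (Subgroup.mem_zpowers v1)
    have m2 : v2 ∈ B := Subgroup.mem_sup_right (Subgroup.mem_zpowers v2)
    have hB4 : Nat.card B = 2 ^ 2 := by
      have hset : (B : Set (Perm α)) = ↑({1, v1, v2, v3} : Finset (Perm α)) := by
        ext v
        simp only [SetLike.mem_coe, Finset.coe_insert, Finset.coe_singleton, Set.mem_insert_iff,
          Set.mem_singleton_iff]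
        refine ⟨hBmem v, ?_⟩
        rintro (rfl | rfl | rfl | rfl)
        · exact one_mem B
        · exact m1
        · exact m2
        · rw [hv3def]; exact mul_mem m1 m2
      show Nat.card ((B : Set (Perm α)) : Type _) = 4
      rw [hset, Nat.card_coe_set_eq, Set.ncard_coe_finset, Finset.card_insert_of_notMem,
        Finset.card_insert_of_notMem, Finset.card_insert_of_notMem, Finset.card_singleton]
      · simp only [Finset.mem_singleton, hv3def]
        intro h
        exact ne1 (mul_right_cancel (b := v2) ((one_mul v2).trans h)).symm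
      · simp only [Finset.mem_insert, Finset.mem_singleton, hv3def, not_or]
        refine ⟨ne12, fun h => ?_⟩
        exact ne2 (mul_left_cancel (a := v1) ((mul_one v1).trans h)).symm
      · simp only [Finset.mem_insert, Finset.mem_singleton, not_or]
        exact ⟨Ne.symm ne1, Ne.symm ne2, Ne.symm ne3⟩
    have hBc : ∀ p ∈ B, ∀ q ∈ B, p * q = q * p := by
      intro p hp q hq
      rcases hBmem p hp with rfl | rfl | rfl | rfl <;> rcases hBmem q hq with rfl | rfl | rfl | rfl <;>
        simp [hv3def, hv12, ← mul_assoc, hv11, hv22] <;> simp [← hv12, mul_assoc, hv11, hv22]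
    have hBn : B ≤ Subgroup.normalizer (H : Set (Perm α)) := by
      have key : ∀ v, IsV v → ∀ g ∈ H, v * g * v ∈ H := fun v hV g hg => mem_fixIn.mpr
        ⟨mul_mem (mul_mem hV.1 (mem_fixIn.mp hg).1) hV.1, fun e he => by
          rw [Perm.mul_apply, Perm.mul_apply, (mem_fixIn.mp hg).2 _ (hV.2.2.2.1 e he), invo v hV.2.1]⟩
      have : ∀ v, IsV v → v ∈ Subgroup.normalizer (H : Set (Perm α)) := fun v hV =>
        Subgroup.mem_normalizer_iff.mpr fun g => by
          rw [inv_eq_of_mul_eq_one_right hV.2.1]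
          refine ⟨key v hV g, fun h => ?_⟩
          have h2 := key v hV _ h
          have e : v * (v * g * v) * v = (v * v) * g * (v * v) := by group
          rwa [e, hV.2.1, one_mul, mul_one] at h2
      exact sup_le (Subgroup.zpowers_le.mpr (this v1 V1)) (Subgroup.zpowers_le.mpr (this v2 V2))
    have hgen := Lib.Coprime.fixGen_eq_of_elementary (B := B) (K := H) Nat.prime_two hBc (fun p hp => by
      rcases hBmem p hp with rfl | rfl | rfl | rfl <;> simp [pow_two, hv11, hv22, hv33]) hB4 hBn (by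
      rw [hB4]; exact Nat.Coprime.pow_left _ (Nat.coprime_two_left.mpr hodd))
    have hstab : H ≤ stabilizer (Perm α) y := by
      rw [← hgen]
      refine iSup₂_le fun v hv => fun g hg => ?_
      obtain ⟨hgH, hgc⟩ := hg
      have hcomm : g * v = v * g := Subgroup.mem_centralizer_singleton_iff.mp hgc
      obtain ⟨hvB, hvne⟩ := hv
      have hgy : g y ∈ O x := by
        obtain ⟨g0, hg0, rfl⟩ := (memO x y).mp hyO
        exact (memO x _).mpr ⟨g * g0, mul_mem hgH hg0, rfl⟩
      have fixg : v (g y) = g y := by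
        rw [← Perm.mul_apply, ← hcomm, Perm.mul_apply]
        rcases hBmem v hvB with rfl | rfl | rfl | rfl
        · rfl
        · rw [hy1]
        · rw [hy2]
        · rw [hy3]
      show g y = y
      rcases hBmem v hvB with h | h | h | h
      · exact absurd h hvne
      · rw [h] at fixg
        exact (hy _).mp ⟨hgy, fixg⟩
      · rw [h] at fixg
        obtain ⟨y', hy'⟩ := one_fix v2 V2 x hx
        exact ((hy' _).mp ⟨hgy, fixg⟩).trans ((hy' _).mp ⟨hyO, hy2⟩).symm
      · rw [h] at fixg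
        obtain ⟨y', hy'⟩ := one_fix v3 V3 x hx
        exact ((hy' _).mp ⟨hgy, fixg⟩).trans ((hy' _).mp ⟨hyO, hy3⟩).symm
    obtain ⟨g0, hg0, hg0x⟩ := (memO x y).mp hyO
    have hxy : x = y := by
      have h := hstab (inv_mem hg0)
      rw [mem_stabilizer_iff, Perm.smul_def, ← hg0x, Perm.coe_inv, Equiv.symm_apply_apply, hg0x] at h
      exact h
    intro g hg
    have := hstab hg
    rw [mem_stabilizer_iff, Perm.smul_def, ← hxy] at this
    exact this
  have allfix : ∀ x, x ∉ s → v1 x = x := by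
    intro x hx
    obtain ⟨g, hg, hgx⟩ := (memO x (v1 x)).mp (hmapO v1 V1 x hx x ((memO x x).mpr ⟨1, one_mem _, rfl⟩))
    rw [← hgx, single x hx g hg]
  have h2 := hfixV v1 hv1 hv11 ne1 V1.2.2.2.1 V1.2.2.2.2.1
  have h3 : sᶜ ⊆ (fixSet v1).filter fun e => e ∉ s := fun e he => by
    rw [Finset.mem_compl] at he
    exact Finset.mem_filter.mpr ⟨mem_fixSet.mpr (allfix e he), he⟩
  have h4 := Finset.card_le_card h3
  rw [Finset.card_compl, hs] at h4
  omega

end Cfsg.Agent.Lib.LWag
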