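import Cfsg.Agent.Lib.LWag.Homog
import Cfsg.Agent.S0680

/-!
Two small groups that do not exist.
-/

set_option autoImplicit false

namespace Cfsg.Agent.Lib.LWag

open Equiv MulAction

variable {α : Type*} [Fintype α] [DecidableEq α] {G : Subgroup (Perm α)}

theorem zpow_cube_eq {u y : Perm α} (hy : y * y * y = 1) (hu : u ^ 11 = 1) {j : ℕ} (hj : y * u * y⁻¹ = u ^ j)
    (hu1 : u ≠ 1) : j % 11 = 1 := by
  have step : ∀ i : ℕ, y * u ^ i * y⁻¹ = u ^ (j * i) := fun i => by
    rw [← conj_pow, hj, ← pow_mul]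
  have h3 : u ^ (j * (j * j)) = u := by
    rw [← step, ← step, ← hj]
    calc y * (y * (y * u * y⁻¹) * y⁻¹) * y⁻¹ = (y * y * y) * u * (y * y * y)⁻¹ := by group
      _ = u := by rw [hy, one_mul, inv_one, mul_one]
  have ho : orderOf u = 11 := by
    haveI := Fact.mk (show Nat.Prime 11 by norm_num)
    exact orderOf_eq_prime hu hu1
  have h4 := pow_inj_mod.mp (h3.trans (pow_one u).symm)
  rw [ho, Nat.mul_mod, Nat.mul_mod j j] at h4
  have hlt : j % 11 < 11 := Nat.mod_lt _ (by norm_num)
  interval_cases j % 11 <;> first | rfl | simp_all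

/-- No 2-transitive group of degree 11 and order 330. -/
theorem no_eleven (hn : Fintype.card α = 11) (hG : IsPretransitive G α) (hc : Nat.card G = 330) : False := by
  haveI := Fact.mk (show Nat.Prime 11 by norm_num)
  haveI := Fact.mk (show Nat.Prime 3 by norm_num)
  obtain ⟨P⟩ := (inferInstance : Nonempty (Sylow 11 G))
  have hPc : Nat.card (P : Subgroup G) = 11 := by
    rw [P.card_eq_multiplicity, hc, show (330 : ℕ) = 11 ^ 1 * 30 by norm_num,
      Nat.factorization_mul (by norm_num) (by norm_num), Finsupp.add_apply, Nat.factorization_pow_self (by norm_num),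
      Nat.factorization_eq_zero_of_not_dvd (by norm_num : ¬ 11 ∣ 30)]
    norm_num
  have hn11 : Nat.card (Sylow 11 G) = 1 := by
    have h1 : Nat.card (Sylow 11 G) % 11 = 1 % 11 := card_sylow_modEq_one 11 G
    have h2 := P.card_dvd_index
    have h3 : (P : Subgroup G).index * 11 = 330 := by
      have h3 := (P : Subgroup G).index_mul_card
      rwa [hPc, hc] at h3
    rw [show (P : Subgroup G).index = 30 by omega] at h2
    have h4 : Nat.card (Sylow 11 G) ≤ 30 := Nat.le_of_dvd (by norm_num) h2
    interval_cases (Nat.card (Sylow 11 G)) <;> simp_all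
  haveI : Subsingleton (Sylow 11 G) := (Nat.card_eq_one_iff_unique.mp hn11).1
  haveI := P.normal_of_subsingleton
  obtain ⟨y, hy⟩ := exists_prime_orderOf_dvd_card' (G := G) 3 (by rw [hc]; norm_num)
  have hy3 : (y : Perm α) * y * y = 1 := by
    have := congrArg Subtype.val (pow_orderOf_eq_one y)
    rw [hy] at this
    simpa [pow_succ] using this
  obtain ⟨a, ha⟩ := Perm.exists_fixed_point_of_prime (p := 3) (n := 1) (σ := (y : Perm α)) (by rw [hn]; norm_num)
    (by rw [pow_one, pow_succ, pow_two, hy3])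
  haveI : IsCyclic (P : Subgroup G) := isCyclic_of_prime_card hPc
  obtain ⟨u, hu⟩ := IsCyclic.exists_monoid_generator (α := (P : Subgroup G))
  have hu1 : ((u : G) : Perm α) ≠ 1 := fun e => by
    haveI : Nontrivial (P : Subgroup G) := Finite.one_lt_card_iff_nontrivial.mp (by rw [hPc]; norm_num)
    obtain ⟨v, hv⟩ := exists_ne (1 : (P : Subgroup G))
    obtain ⟨i, hi⟩ := Submonoid.mem_powers_iff _ _ |>.mp (hu v)
    exact hv (by rw [← hi, show u = 1 from Subtype.ext (Subtype.ext e), one_pow])
  have hu11 : ((u : G) : Perm α) ^ 11 = 1 := by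
    have := congrArg (fun q : (P : Subgroup G) => ((q : G) : Perm α)) (pow_card_eq_one' (x := u))
    rw [hPc] at this
    simpa using this
  obtain ⟨j, hj⟩ := Submonoid.mem_powers_iff _ _ |>.mp
    (hu ⟨y * u * y⁻¹, (inferInstance : (P : Subgroup G).Normal).conj_mem _ u.2 y⟩)
  have hj' : (y : Perm α) * ((u : G) : Perm α) * (y : Perm α)⁻¹ = ((u : G) : Perm α) ^ j :=
    (congrArg (fun q : (P : Subgroup G) => ((q : G) : Perm α)) hj).symm
  have hj1 := zpow_cube_eq hy3 hu11 hj' hu1
  rw [← Nat.div_add_mod j 11, hj1, pow_add, pow_mul, hu11, one_pow, one_mul, pow_one, mul_inv_eq_iff_eq_mul] at hj'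
  -- `u` moves every point around one cycle
  set v := ((u : G) : Perm α) with hv
  have hfix : (fixSet v).card ≡ Fintype.card α [MOD 11] := fixSet_modEq (p := 11) (j := 1) (by rw [pow_one, hu11])
  have hcyc : Perm.IsCycle v := by
    refine Perm.isCycle_of_prime_order' ?_ ?_
    · rw [orderOf_eq_prime hu11 hu1]; norm_num
    · rw [orderOf_eq_prime hu11 hu1, hn]; norm_num
  have hnone : ∀ x, v x ≠ x := by
    intro x hx
    have h1 : (fixSet v).card < 11 := by
      rw [← hn, ← Finset.card_univ]
      exact Finset.card_lt_card (Finset.ssubset_univ_iff.mpr fun e =>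
        hu1 (Equiv.ext fun x => mem_fixSet.mp (by rw [e]; exact Finset.mem_univ x)))
    have h2 : 0 < (fixSet v).card := Finset.card_pos.mpr ⟨x, mem_fixSet.mpr hx⟩
    unfold Nat.ModEq at hfix
    omega
  have hy1 : (y : Perm α) = 1 := by
    refine Equiv.ext fun x => ?_
    obtain ⟨i, rfl⟩ := hcyc.exists_pow_eq (hnone a) (hnone x)
    have hcomm : Commute (y : Perm α) (v ^ i) := (show Commute (y : Perm α) v from hj').pow_right i
    show (y : Perm α) ((v ^ i) a) = (v ^ i) a
    rw [← Perm.mul_apply, hcomm.eq, Perm.mul_apply, ha]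
  have : y = 1 := Subtype.ext hy1
  rw [this, orderOf_one] at hy
  norm_num at hy

/-- No 3-transitive group of degree 7 and order 210. -/
theorem no_seven (hn : Fintype.card α = 7) (hG : IsMultiplyPretransitive G α 3) (hS : Semireg G 3)
    (hc : ∀ t : Finset α, t.card = 3 → Nat.card (fixIn G t) = 1) : False := by
  haveI := hG
  obtain ⟨a⟩ : Nonempty α := Fintype.card_pos_iff.mp (by omega)
  let β := SubMulAction.ofStabilizer G a
  letI : Fintype β := Fintype.ofFinite β
  letI : DecidableEq β := Classical.decEq β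
  let K := (MulAction.toPermHom (stabilizer G a) β).range
  haveI : IsPretransitive G α := by
    rw [← is_one_pretransitive_iff]
    exact isMultiplyPretransitive_of_le' (n := 3) (by norm_num) (by rw [ENat.card_eq_coe_fintype_card, hn]; norm_num)
  have hβ2 : IsMultiplyPretransitive (stabilizer G a) β 2 :=
    SubMulAction.ofStabilizer.isMultiplyPretransitive.mp hG
  haveI : IsMultiplyPretransitive K β 2 := by
    rw [isMultiplyPretransitive_iff]
    intro x y
    obtain ⟨g, hg⟩ := exists_smul_eq (stabilizer G a) x y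
    exact ⟨⟨_, g, rfl⟩, hg⟩
  have hβc : Fintype.card β = 6 := by
    have := SubMulAction.nat_card_ofStabilizer_eq G a
    rw [Nat.card_eq_fintype_card, Nat.card_eq_fintype_card, hn] at this
    exact this
  obtain ⟨p, j, hp, hj, hpj, -⟩ := S0680.result K (fun x => by
    refine (Subgroup.eq_bot_iff_forall _).mpr ?_
    rintro ⟨_, g, rfl⟩ hg'
    have hx : ∀ i, ((g : G) : Perm α) ((x i : β) : α) = ((x i : β) : α) := fun i =>
      congrArg Subtype.val (DFunLike.congr_fun (mem_stabilizer_iff.mp hg') i)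
    have hga : ((g : G) : Perm α) a = a := g.2
    have hcard : ({a, ((x 0 : β) : α), ((x 1 : β) : α)} : Finset α).card = 3 := by
      refine Finset.card_eq_three.mpr ⟨_, _, _, ?_, ?_, ?_, rfl⟩
      · exact fun e => (SubMulAction.mem_ofStabilizer_iff G a).mp (x 0).2 e.symm
      · exact fun e => (SubMulAction.mem_ofStabilizer_iff G a).mp (x 1).2 e.symm
      · exact fun e => absurd (x.injective (Subtype.ext e)) (by decide)
    have h1 := Subgroup.eq_bot_of_card_eq (fixIn G _) (hc _ hcard)
    have h2 : ((g : G) : Perm α) = 1 := Subgroup.mem_bot.mp (h1 ▸ mem_fixIn.mpr ⟨(g : G).2, fun c hc => by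
      simp only [Finset.mem_insert, Finset.mem_singleton] at hc
      rcases hc with rfl | rfl | rfl
      · exact hga
      · exact hx 0
      · exact hx 1⟩)
    refine Subtype.ext ?_
    simp only [show g = 1 from Subtype.ext (Subtype.ext h2), map_one, Subgroup.coe_one]) (by omega)
  rw [hβc] at hpj
  have h2 : 2 ∣ p ^ j := hpj ▸ (by norm_num)
  have h3 : 3 ∣ p ^ j := hpj ▸ (by norm_num)
  have e2 := (Nat.prime_dvd_prime_iff_eq Nat.prime_two hp).mp (Nat.prime_two.dvd_of_dvd_pow h2)
  have e3 := (Nat.prime_dvd_prime_iff_eq Nat.prime_three hp).mp (Nat.prime_three.dvd_of_dvd_pow h3)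
  omega

end Cfsg.Agent.Lib.LWag
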