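import Cfsg.Agent.Lib.LWag.Core
import Cfsg.Agent.S0415
import Cfsg.Agent.S0416
import Cfsg.Agent.S0417

/-!
Highly transitive groups in which only the identity fixes more than `k` points.
-/

set_option autoImplicit false

namespace Cfsg.Agent.Lib.LWag

open Equiv MulAction

variable {α : Type*} [Fintype α] [DecidableEq α] {G : Subgroup (Perm α)} {k : ℕ}

/-- An involution exchanging `a`, `b` and fixing the rest of `t`. -/
def IsExch (G : Subgroup (Perm α)) (t : Finset α) (a b : α) (z : Perm α) : Prop :=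
  z ∈ G ∧ z * z = 1 ∧ ∀ c ∈ t, z c = Equiv.swap a b c

/-- The sharply transitive case with seven other points (degrees 11 and 12). -/
theorem Semireg.full_of_seven (hS : Semireg G k) (hG : IsMultiplyPretransitive G α k) (hk : 4 ≤ k)
    (hn : Fintype.card α = k + 7) (htriv : ∀ t : Finset α, t.card = k → Nat.card (fixIn G t) = 1) :
    ∃ Δ : Finset α, Δ.card = k + 1 ∧ Full G Δ := by
  have one_of_fix : ∀ t : Finset α, t.card = k → ∀ g ∈ G, (∀ c ∈ t, g c = c) → g = 1 := fun t ht g hg hgt => by
    have h := Subgroup.eq_bot_of_card_eq (fixIn G t) (htriv t ht)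
    exact (Subgroup.mem_bot).mp (h ▸ mem_fixIn.mpr ⟨hg, hgt⟩)
  have exch : ∀ t : Finset α, t.card = k → ∀ a ∈ t, ∀ b ∈ t, ∃ z, IsExch G t a b z := by
    intro t ht a ha b hb
    obtain ⟨g, hg, hgs⟩ := exists_swap_lift hG (by omega) t ht.le a b
    refine ⟨g, hg, one_of_fix t ht _ (mul_mem hg hg) fun c hc => ?_, hgs⟩
    have hmem : Equiv.swap a b c ∈ t := by
      rw [Equiv.swap_apply_def]; split_ifs <;> assumption
    rw [Perm.mul_apply, hgs c hc, hgs _ hmem, Equiv.swap_apply_self]
  have facts : ∀ t : Finset α, t.card = k → ∀ a ∈ t, ∀ b ∈ t, a ≠ b → ∀ z, IsExch G t a b z →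
      z a = b ∧ z b = a ∧ (∀ c ∈ t, c ≠ a → c ≠ b → z c = c) := fun t _ a ha b hb _ z hz =>
    ⟨by rw [hz.2.2 a ha, Equiv.swap_apply_left], by rw [hz.2.2 b hb, Equiv.swap_apply_right],
      fun c hc hca hcb => by rw [hz.2.2 c hc, Equiv.swap_apply_of_ne_of_ne hca hcb]⟩
  -- a unique further fixed point
  have one_out : ∀ t : Finset α, t.card = k → ∀ a ∈ t, ∀ b ∈ t, a ≠ b → ∀ z, IsExch G t a b z →
      ∃ x, x ∉ t ∧ ∀ y, y ∉ t → (z y = y ↔ y = x) := by
    intro t ht a ha b hb hab z hz
    obtain ⟨hza, hzb, hzc⟩ := facts t ht a ha b hb hab z hz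
    have hz1 : z ≠ 1 := fun e => hab (by rw [← hza, e, Perm.one_apply])
    have hin : fixSet z ∩ t = (t.erase a).erase b := by
      ext c
      simp only [Finset.mem_inter, mem_fixSet, Finset.mem_erase]
      refine ⟨fun ⟨h, hc⟩ => ⟨fun e => hab (by rw [e, hzb] at h; exact h),
        fun e => hab (by rw [e, hza] at h; exact h.symm), hc⟩, fun ⟨h1, h2, hc⟩ => ⟨hzc c hc h2 h1, hc⟩⟩
    have hsplit := Finset.card_inter_add_card_sdiff (fixSet z) t
    rw [hin, Finset.card_erase_of_mem (by simp [hb, hab.symm]), Finset.card_erase_of_mem ha, ht] at hsplit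
    haveI : Fact (Nat.Prime 2) := ⟨Nat.prime_two⟩
    have hmod := fixSet_modEq (p := 2) (j := 1) (g := z) (by rw [pow_one, pow_two, hz.2.1])
    have hle := hS.fix_le hz.1 hz1
    unfold Nat.ModEq at hmod
    obtain ⟨x, hx⟩ := Finset.card_eq_one.mp (show (fixSet z \ t).card = 1 by omega)
    have hxm : x ∈ fixSet z \ t := by rw [hx]; simp
    refine ⟨x, (Finset.mem_sdiff.mp hxm).2, fun y hy => ⟨fun h => ?_, fun h => ?_⟩⟩
    · exact Finset.mem_singleton.mp (hx ▸ Finset.mem_sdiff.mpr ⟨mem_fixSet.mpr h, hy⟩)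
    · exact h ▸ mem_fixSet.mp (Finset.mem_sdiff.mp hxm).1
  -- exchanges sharing a letter have the same further fixed point
  have adj : ∀ t : Finset α, t.card = k → ∀ a ∈ t, ∀ b ∈ t, ∀ c ∈ t, a ≠ b → a ≠ c → b ≠ c →
      ∀ z, IsExch G t a b z → ∀ w, IsExch G t a c w → ∀ x, x ∉ t → z x = x → w x = x := by
    intro t ht a ha b hb c hc hab hac hbc z hz w hw x hx hzx
    obtain ⟨hza, hzb, hzr⟩ := facts t ht a ha b hb hab z hz
    obtain ⟨hwa, hwc, hwr⟩ := facts t ht a ha c hc hac w hw
    set u := z * w with hu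
    have hua : u a = c := by rw [hu, Perm.mul_apply, hwa, hzr c hc (Ne.symm hac) (Ne.symm hbc)]
    have huc : u c = b := by rw [hu, Perm.mul_apply, hwc, hza]
    have hub : u b = a := by rw [hu, Perm.mul_apply, hwr b hb (Ne.symm hab) hbc, hzb]
    have hur : ∀ e ∈ t, e ≠ a → e ≠ b → e ≠ c → u e = e := fun e he h1 h2 h3 => by
      rw [hu, Perm.mul_apply, hwr e he h1 h3, hzr e he h1 h2]
    have hu1 : u ≠ 1 := fun e => hac (by rw [← hua, e, Perm.one_apply])
    have hu3 : u ^ 3 = 1 := one_of_fix t ht _ (pow_mem (mul_mem hz.1 hw.1) 3) fun e he => by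
      simp only [pow_succ, pow_zero, one_mul, Perm.mul_apply]
      by_cases h1 : e = a
      · subst h1; rw [hua, huc, hub]
      by_cases h2 : e = b
      · subst h2; rw [hub, hua, huc]
      by_cases h3 : e = c
      · subst h3; rw [huc, hub, hua]
      rw [hur e he h1 h2 h3, hur e he h1 h2 h3, hur e he h1 h2 h3]
    have hin : fixSet u ∩ t = ((t.erase a).erase b).erase c := by
      ext e
      simp only [Finset.mem_inter, mem_fixSet, Finset.mem_erase]
      refine ⟨fun ⟨h, he⟩ => ⟨fun e' => hbc (by rw [e', huc] at h; exact h),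
        fun e' => hab (by rw [e', hub] at h; exact h), fun e' => hac (by rw [e', hua] at h; exact h.symm), he⟩,
        fun ⟨h1, h2, h3, he⟩ => ⟨hur e he h3 h2 h1, he⟩⟩
    have hsplit := Finset.card_inter_add_card_sdiff (fixSet u) t
    rw [hin, Finset.card_erase_of_mem (by simp [hc, Ne.symm hac, Ne.symm hbc]),
      Finset.card_erase_of_mem (by simp [hb, hab.symm]), Finset.card_erase_of_mem ha, ht] at hsplit
    haveI : Fact (Nat.Prime 3) := ⟨Nat.prime_three⟩
    have hmod := fixSet_modEq (p := 3) (j := 1) (g := u) (by rw [pow_one, hu3])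
    have hle : (fixSet u).card ≤ k := hS.fix_le (mul_mem hz.1 hw.1) hu1
    unfold Nat.ModEq at hmod
    obtain ⟨y, hy⟩ := Finset.card_eq_one.mp (show (fixSet u \ t).card = 1 by omega)
    have hym : y ∈ fixSet u \ t := by rw [hy]; simp
    obtain ⟨hyu, hyt⟩ := Finset.mem_sdiff.mp hym
    rw [mem_fixSet] at hyu
    have ww : ∀ e, w (w e) = e := fun e => by rw [← Perm.mul_apply, hw.2.1, Perm.one_apply]
    have zz : ∀ e, z (z e) = e := fun e => by rw [← Perm.mul_apply, hz.2.1, Perm.one_apply]
    have hwy : w y = z y := by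
      have := congrArg z hyu
      rwa [hu, Perm.mul_apply, zz] at this
    have hzt : z y ∉ t := fun hm => hyt (by
      have h2 : z (z y) ∈ t := by
        rw [hz.2.2 _ hm, Equiv.swap_apply_def]; split_ifs <;> assumption
      rwa [zz] at h2)
    have hzy : z y = y := by
      refine Finset.mem_singleton.mp (hy ▸ Finset.mem_sdiff.mpr ⟨mem_fixSet.mpr ?_, hzt⟩)
      rw [hu, Perm.mul_apply]
      conv_lhs => rw [← hwy, ww]
    obtain ⟨x0, -, hx0⟩ := one_out t ht a ha b hb hab z hz
    rw [(hx0 x hx).mp hzx, ← (hx0 y hyt).mp hzy, hwy, hzy]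
  have sym : ∀ t a b z, IsExch G t a b z → IsExch G t b a z := fun t a b z h => by
    refine ⟨h.1, h.2.1, fun c hc => ?_⟩
    rw [h.2.2 c hc, Equiv.swap_comm]
  -- all exchanges on a set share one further fixed point
  have common : ∀ t : Finset α, t.card = k → ∀ a ∈ t, ∀ b ∈ t, a ≠ b → ∀ z, IsExch G t a b z →
      ∀ x, x ∉ t → z x = x → ∀ c ∈ t, ∀ e ∈ t, c ≠ e → ∀ w, IsExch G t c e w → w x = x := by
    intro t ht a ha b hb hab z hz x hx hzx c hc e he hce w hw
    by_cases h1 : c = a
    · subst h1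
      by_cases h2 : e = b
      · subst h2
        rw [show w = z from mul_inv_eq_one.mp (one_of_fix t ht _ (mul_mem hw.1 (inv_mem hz.1)) fun f hf => by
          rw [Perm.mul_apply, show z⁻¹ = z from inv_eq_of_mul_eq_one_right hz.2.1, hz.2.2 f hf]
          rw [hw.2.2 _ (by rw [Equiv.swap_apply_def]; split_ifs <;> assumption), Equiv.swap_apply_self])]
        exact hzx
      exact adj t ht c ha b hb e he hab hce (fun h => h2 h.symm) z hz w hw x hx hzx
    by_cases h2 : e = a
    · subst h2
      by_cases h3 : c = b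
      · subst h3
        rw [show w = z from mul_inv_eq_one.mp (one_of_fix t ht _ (mul_mem hw.1 (inv_mem hz.1)) fun f hf => by
          rw [Perm.mul_apply, show z⁻¹ = z from inv_eq_of_mul_eq_one_right hz.2.1, hz.2.2 f hf]
          rw [hw.2.2 _ (by rw [Equiv.swap_apply_def]; split_ifs <;> assumption), Equiv.swap_comm,
            Equiv.swap_apply_self])]
        exact hzx
      exact adj t ht e he b hb c hc hab (Ne.symm hce) (fun h => h3 h.symm) z hz w (sym _ _ _ _ hw) x hx hzx
    -- pass through the exchange of `a` and `c`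
    obtain ⟨v, hv⟩ := exch t ht a ha c hc
    have hvx : v x = x := by
      by_cases h3 : c = b
      · subst h3
        rw [show v = z from mul_inv_eq_one.mp (one_of_fix t ht _ (mul_mem hv.1 (inv_mem hz.1)) fun f hf => by
          rw [Perm.mul_apply, show z⁻¹ = z from inv_eq_of_mul_eq_one_right hz.2.1, hz.2.2 f hf]
          rw [hv.2.2 _ (by rw [Equiv.swap_apply_def]; split_ifs <;> assumption), Equiv.swap_apply_self])]
        exact hzx
      exact adj t ht a ha b hb c hc hab (Ne.symm h1) (fun h => h3 h.symm) z hz v hv x hx hzx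
    exact adj t ht c hc a ha e he h1 hce (Ne.symm h2) v (sym _ _ _ _ hv) w hw x hx hvx
  obtain ⟨t, -, ht⟩ := Finset.exists_subset_card_eq (s := (Finset.univ : Finset α)) (n := k)
    (by rw [Finset.card_univ]; omega)
  obtain ⟨a, ha, b, hb, hab⟩ := Finset.one_lt_card.mp (show 1 < t.card by omega)
  obtain ⟨z, hz⟩ := exch t ht a ha b hb
  obtain ⟨x, hx, hxz⟩ := one_out t ht a ha b hb hab z hz
  have hzx : z x = x := (hxz x hx).mpr rfl
  refine ⟨insert x t, by rw [Finset.card_insert_of_notMem hx, ht], full_of_swaps ?_⟩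
  have inner : ∀ c ∈ t, ∀ e ∈ t, c ≠ e →
      ∃ g ∈ G, g c = e ∧ g e = c ∧ ∀ f ∈ insert x t, f ≠ c → f ≠ e → g f = f := by
    intro c hc e he hce
    obtain ⟨w, hw⟩ := exch t ht c hc e he
    obtain ⟨h1, h2, h3⟩ := facts t ht c hc e he hce w hw
    refine ⟨w, hw.1, h1, h2, fun f hf hfc hfe => ?_⟩
    rcases Finset.mem_insert.mp hf with rfl | hf
    · exact common t ht a ha b hb hab z hz f hx hzx c hc e he hce w hw
    · exact h3 f hf hfc hfe
  have outer : ∀ c ∈ t, ∃ g ∈ G, g x = c ∧ g c = x ∧ ∀ f ∈ insert x t, f ≠ x → f ≠ c → g f = f := by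
    intro c hc
    -- choose a letter to leave out and a pair to exchange
    obtain ⟨e, he⟩ := Finset.card_pos.mp (show 0 < (t.erase c).card by
      rw [Finset.card_erase_of_mem hc]; omega)
    obtain ⟨hec, het⟩ := Finset.mem_erase.mp he
    set t' := insert x (t.erase e) with ht'
    have hxe : x ∉ t.erase e := fun h => hx (Finset.mem_of_mem_erase h)
    have ht'c : t'.card = k := by
      rw [ht', Finset.card_insert_of_notMem hxe, Finset.card_erase_of_mem het, ht]; omega
    have het' : e ∉ t' := by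
      simp only [ht', Finset.mem_insert, Finset.mem_erase, not_or]
      exact ⟨fun h => hx (h ▸ het), fun h => h.1 rfl⟩
    obtain ⟨p, hp, q, hq, hpq⟩ := Finset.one_lt_card.mp (show 1 < (t.erase e).card by
      rw [Finset.card_erase_of_mem het]; omega)
    obtain ⟨hpe, hpt⟩ := Finset.mem_erase.mp hp
    obtain ⟨hqe, hqt⟩ := Finset.mem_erase.mp hq
    obtain ⟨v, hv⟩ := exch t ht p hpt q hqt
    have hvx := common t ht a ha b hb hab z hz x hx hzx p hpt q hqt hpq v hv
    have hv' : IsExch G t' p q v := ⟨hv.1, hv.2.1, fun f hf => by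
      rcases Finset.mem_insert.mp hf with rfl | hf
      · rw [hvx, Equiv.swap_apply_of_ne_of_ne (fun h => hx (by rw [h]; exact hpt))
          (fun h => hx (by rw [h]; exact hqt))]
      · exact hv.2.2 f (Finset.mem_of_mem_erase hf)⟩
    have hve : v e = e := by rw [hv.2.2 e het, Equiv.swap_apply_of_ne_of_ne (Ne.symm hpe) (Ne.symm hqe)]
    have hct' : c ∈ t' := Finset.mem_insert_of_mem (Finset.mem_erase.mpr ⟨Ne.symm hec, hc⟩)
    have hxt' : x ∈ t' := Finset.mem_insert_self _ _
    obtain ⟨w, hw⟩ := exch t' ht'c x hxt' c hct'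
    have hxc : x ≠ c := fun h => hx (h ▸ hc)
    obtain ⟨h1, h2, h3⟩ := facts t' ht'c x hxt' c hct' hxc w hw
    have hwe : w e = e := common t' ht'c p (Finset.mem_insert_of_mem hp) q (Finset.mem_insert_of_mem hq)
      hpq v hv' e het' hve x hxt' c hct' hxc w hw
    refine ⟨w, hw.1, h1, h2, fun f hf hfx hfc => ?_⟩
    by_cases hfe : f = e
    · rw [hfe]; exact hwe
    · exact h3 f (Finset.mem_insert_of_mem (Finset.mem_erase.mpr
        ⟨hfe, (Finset.mem_insert.mp hf).resolve_left hfx⟩)) hfx hfc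
  intro c hc e he hce
  rcases Finset.mem_insert.mp hc with h1 | hc'
  · subst h1
    rcases Finset.mem_insert.mp he with h2 | he'
    · exact absurd h2.symm hce
    · exact outer e he'
  · rcases Finset.mem_insert.mp he with h2 | he'
    · subst h2
      obtain ⟨g, hg, h1, h2, h3⟩ := outer c hc'
      exact ⟨g, hg, h2, h1, fun f hf hfc hfe => h3 f hf hfe hfc⟩
    · exact inner c hc' e he' hce

/-- In the sharply transitive case the stabilizer of a tuple is trivial. -/
theorem sharp_of_card_one (htriv : ∀ t : Finset α, t.card = k → Nat.card (fixIn G t) = 1)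
    (x : Fin k ↪ α) : stabilizer G x = ⊥ := by
  refine (Subgroup.eq_bot_iff_forall _).mpr fun g hg => ?_
  have h := Subgroup.eq_bot_of_card_eq (fixIn G (Finset.univ.map x)) (htriv _ (by simp))
  refine Subtype.ext ((Subgroup.mem_bot).mp (h ▸ mem_fixIn.mpr ⟨g.2, fun c hc => ?_⟩))
  obtain ⟨i, -, rfl⟩ := Finset.mem_map.mp hc
  exact DFunLike.congr_fun (mem_stabilizer_iff.mp hg) i

/-- A `k`-transitive group, `4 ≤ k < n`, in which only the identity fixes more than `k` points,
has a full `(k+1)`-set unless it contains the alternating group of degree `k + 2`. -/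
theorem Semireg.structure_thm (hS : Semireg G k) (hG : IsMultiplyPretransitive G α k) (hk : 4 ≤ k)
    (hn : k < Fintype.card α) :
    (∃ Δ : Finset α, Δ.card = k + 1 ∧ Full G Δ) ∨
      (Fintype.card α = k + 2 ∧ alternatingGroup α ≤ G) := by
  obtain ⟨Δ, -, hΔ⟩ := Finset.exists_subset_card_eq (s := (Finset.univ : Finset α)) (n := k + 1)
    (by rw [Finset.card_univ]; omega)
  obtain ⟨s, -, hs⟩ := Finset.exists_subset_card_eq (s := (Finset.univ : Finset α)) (n := k)
    (by rw [Finset.card_univ]; omega)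
  have hconst : ∀ t : Finset α, t.card = k → Nat.card (fixIn G t) = Nat.card (fixIn G s) := fun t ht => by
    obtain ⟨g, hg, rfl⟩ := exists_map_set hG hn.le s t hs.le (hs.trans ht.symm)
    exact card_fixIn_image hg s
  have of_trans : IsMultiplyPretransitive G α (k + 1) → ∃ Δ : Finset α, Δ.card = k + 1 ∧ Full G Δ :=
    fun h => ⟨Δ, hΔ, full_of_trans h (by omega) hΔ.le⟩
  rcases Nat.even_or_odd (Nat.card (fixIn G s)) with hev | hodd
  · exact Or.inl ⟨Δ, hΔ, hS.full_of_even hG hn.le (fun t ht => (hconst t ht).symm ▸ hev) Δ hΔ (by omega)⟩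
  have hdvd := hS.card_dvd hs
  have hpos : 0 < Nat.card (fixIn G s) := Nat.card_pos
  by_cases h3 : 3 ≤ Nat.card (fixIn G s)
  · have hle := Nat.le_of_dvd (by omega) hdvd
    by_cases hm : k + 4 ≤ Fintype.card α
    · exact absurd (hS.odd_core hG (by omega) hm s hs hodd h3).1 (by omega)
    · exact Or.inl (of_trans (hS.trans_of_card hG hn.le hs (by omega)))
  have h1 : Nat.card (fixIn G s) = 1 := by
    obtain ⟨j, hj⟩ := hodd; omega
  have htriv : ∀ t : Finset α, t.card = k → Nat.card (fixIn G t) = 1 := fun t ht => by rw [hconst t ht, h1]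
  have hsharp := sharp_of_card_one htriv
  haveI := hG
  have hlist : Fintype.card α = k + 1 ∨ Fintype.card α = k + 2 ∨ Fintype.card α = k + 7 := by
    obtain rfl | hk5 := eq_or_lt_of_le hk
    · have := S0415.result G (by omega) hsharp; omega
    obtain rfl | hk6 := eq_or_lt_of_le (Nat.succ_le_of_lt hk5)
    · have := S0416.result G (by omega) hsharp; omega
    · have := S0417.result G k (by omega) hn.le hsharp; omega
  rcases hlist with h | h | h
  · exact Or.inl (of_trans (hS.trans_of_card hG hn.le hs (by omega)))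
  · refine Or.inr ⟨h, _root_.IsMultiplyPretransitive.alternatingGroup_le α G ?_⟩
    rw [Nat.card_eq_fintype_card, h]
    exact hG
  · exact Or.inl (hS.full_of_seven hG hk h htriv)

end Cfsg.Agent.Lib.LWag
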